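import Mathlib
import Cfsg.Agent.Lib.Helper96.HallSymStmt

/-!
# S2536 piece EK2 (helper47): the case `(a + b - 1) (b + 2) = 6 a (a - 1)` of the binomial lemma
-/

set_option autoImplicit false

namespace Cfsg.Agent.Lib.Helper47.HSEK2

open Equiv Cfsg.Agent.Lib.Helper96.HallSymStmt

theorem main : Cfsg.Agent.Lib.Helper96.HallSymStmt.EK2' := by
  intro hTL a b ha hab hNS hb1 hodd heq
  obtain ⟨a', rfl⟩ : ∃ a', a = a' + 1 := ⟨a - 1, by omega⟩
  have heq' : (a' + b) * (b + 2) = 6 * ((a' + 1) * a') := by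
    have h1 : a' + 1 + b - 1 = a' + b := by omega
    have h2 : a' + 1 - 1 = a' := by omega
    rw [h1, h2] at heq
    exact heq
  have hb : b = 2 * a' := by
    rcases Nat.lt_trichotomy b (2 * a') with h | h | h
    · exfalso
      have h3 : b + 1 ≤ 2 * a' := h
      nlinarith
    · exact h
    · exfalso
      have h3 : 2 * a' + 1 ≤ b := h
      nlinarith
  subst hb
  obtain ⟨k, hk⟩ := hodd
  have ha' : a' = 2 * k := by omega
  subst ha'
  have hk0 : 1 ≤ k := by omega
  by_cases hk1 : k = 1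
  · subst hk1
    exact ⟨rfl, rfl⟩
  · exfalso
    obtain ⟨t, rfl⟩ : ∃ t, k = t + 2 := ⟨k - 2, by omega⟩
    have hn : 2 * (t + 2) + 1 + 2 * (2 * (t + 2)) = 6 * t + 13 := by ring
    have hprimes : ∀ q : ℕ, q.Prime → q ∣ (6 * t + 12) * (6 * t + 10) → q ≤ 2 * (2 * (t + 2)) := by
      intro q hq hdvd
      rcases (Nat.Prime.dvd_mul hq).1 hdvd with h | h
      · have h1 : 6 * t + 12 = 6 * (t + 2) := by ring
        rw [h1] at h
        rcases (Nat.Prime.dvd_mul hq).1 h with h' | h'
        · have := Nat.le_of_dvd (by norm_num) h'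
          omega
        · have := Nat.le_of_dvd (by omega) h'
          omega
      · have h1 : 6 * t + 10 = 2 * (3 * t + 5) := by ring
        rw [h1] at h
        rcases (Nat.Prime.dvd_mul hq).1 h with h' | h'
        · have := Nat.le_of_dvd (by norm_num) h'
          omega
        · have := Nat.le_of_dvd (by omega) h'
          omega
    have hdesc1 : (6 * t + 13).descFactorial 4 =
        (6 * t + 10) * ((6 * t + 11) * ((6 * t + 12) * ((6 * t + 13) * 1))) := by
      simp only [Nat.descFactorial_succ, Nat.descFactorial_zero]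
      have e1 : 6 * t + 13 - 3 = 6 * t + 10 := by omega
      have e2 : 6 * t + 13 - 2 = 6 * t + 11 := by omega
      have e3 : 6 * t + 13 - 1 = 6 * t + 12 := by omega
      have e4 : 6 * t + 13 - 0 = 6 * t + 13 := by omega
      rw [e1, e2, e3, e4]
    have hdesc2 : (2 * (t + 2) + 1).descFactorial (4 + 0) =
        (2 * t + 2) * ((2 * t + 3) * ((2 * t + 4) * ((2 * t + 5) * 1))) := by
      simp only [Nat.descFactorial_succ, Nat.descFactorial_zero]
      have e1 : 2 * (t + 2) + 1 - 3 = 2 * t + 2 := by omega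
      have e2 : 2 * (t + 2) + 1 - 2 = 2 * t + 3 := by omega
      have e3 : 2 * (t + 2) + 1 - 1 = 2 * t + 4 := by omega
      have e4 : 2 * (t + 2) + 1 - 0 = 2 * t + 5 := by omega
      rw [e1, e2, e3, e4]
    have hN := hTL (2 * (t + 2) + 1) (2 * (2 * (t + 2))) hNS 4 0 (by omega)
      ((6 * t + 12) * (6 * t + 10)) hprimes (by
        rw [hn, hdesc1, Nat.descFactorial_zero, mul_one]
        exact Dvd.intro ((6 * t + 11) * (6 * t + 13)) (by ring))
    rw [hdesc2] at hN
    -- `(3 t + 5) ∣ (t + 1) (2 t + 3) (2 t + 5)`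
    have h1 : (3 * t + 5) * 3 * (4 * (t + 2)) ∣ (t + 1) * (2 * t + 3) * (2 * t + 5) * (4 * (t + 2)) := by
      have e1 : (3 * t + 5) * 3 * (4 * (t + 2)) = (6 * t + 12) * (6 * t + 10) := by ring
      have e2 : (t + 1) * (2 * t + 3) * (2 * t + 5) * (4 * (t + 2)) =
          (2 * t + 2) * ((2 * t + 3) * ((2 * t + 4) * ((2 * t + 5) * 1))) := by ring
      rw [e1, e2]
      exact hN
    have h2 : (3 * t + 5) * 3 ∣ (t + 1) * (2 * t + 3) * (2 * t + 5) :=
      Nat.dvd_of_mul_dvd_mul_right (by omega) h1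
    have h3 : (3 * t + 5) ∣ (t + 1) * (2 * t + 3) * (2 * t + 5) := dvd_of_mul_right_dvd h2
    have h4 : (3 * t + 5) ∣ 10 := by
      have e3 : 27 * ((t + 1) * (2 * t + 3) * (2 * t + 5)) =
          (3 * t + 5) * (36 * t ^ 2 + 120 * t + 79) + 10 := by ring
      have h5 : (3 * t + 5) ∣ 27 * ((t + 1) * (2 * t + 3) * (2 * t + 5)) := Dvd.dvd.mul_left h3 27
      rw [e3] at h5
      exact (Nat.dvd_add_right (Dvd.intro _ rfl)).1 h5
    have h5 : 3 * t + 5 ≤ 10 := Nat.le_of_dvd (by norm_num) h4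
    have ht : t ≤ 1 := by omega
    interval_cases t
    · norm_num at hb1
    · norm_num at h4

end Cfsg.Agent.Lib.Helper47.HSEK2
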