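import Mathlib
import Cfsg.Agent.Lib.Helper96.HallSymStmt

/-!
# S2536 piece TR (helper47): a transitive Hall `π`-subgroup of degree `m` (from `Fwd m`)
-/

set_option autoImplicit false

namespace Cfsg.Agent.Lib.Helper47.HSTR

open Equiv Cfsg.Agent.Lib.Helper96.HallSymStmt

theorem main : Cfsg.Agent.Lib.Helper96.HallSymStmt.TR' := by
  intro hTDVD m hF Ω _ _ hcard π H hHall hTr hTwo
  by_cases hall : ∀ r : ℕ, r.Prime → r ≤ m → r ∈ π
  · left; exact hall
  · right
    push Not at hall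
    obtain ⟨r0, hr0, hr0m, hr0π⟩ := hall
    have hNot : NotAll m π := ⟨r0, hr0, hr0m, hr0π⟩
    have hC := hF Ω hcard π hTwo hNot H hHall
    have hm2 : 2 ≤ m := le_trans hr0.two_le hr0m
    have hdvd : m ∣ Nat.card H := by
      have h1 := hTDVD Ω H (by rw [hcard]; omega) hTr
      rwa [hcard] at h1
    rcases hC with ⟨hmp, hiff⟩ | ⟨hm78, hiff⟩
    · exfalso
      have h1 : m ∈ π := hHall.1 m hmp hdvd
      exact absurd ((hiff m hmp le_rfl).1 h1) (lt_irrefl m)
    · rcases hm78 with rfl | rfl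
      · exfalso
        have h7 : (7 : ℕ) ∈ π := hHall.1 7 (by norm_num) hdvd
        have h1 := (hiff 7 (by norm_num) le_rfl).1 h7
        omega
      · exact ⟨rfl, hiff⟩

end Cfsg.Agent.Lib.Helper47.HSTR
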