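import Mathlib
import Cfsg.Agent.Lib.Helper41.OFStmt

/-!
# S5977 piece OMV (helper47)

A non-singular vector `v` with `B(v, J v) = 0`, for `J` self-adjoint with `J² = l` a non-square.
The isotropic vector of `S0 * J` comes from Chevalley–Warning.
-/

set_option autoImplicit false
set_option linter.unusedSimpArgs false

namespace Cfsg.Agent.Lib.Helper47.OFOMV

open Matrix
open Cfsg.Agent.Lib.Helper41.OFStmt
open Cfsg.Agent.Lib.Helper41.SpFStmt (Mat)

universe u

/-- the abstract core: from an isotropic vector of `B(·, J ·)` to a non-singular one -/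
theorem abstract_core {F : Type u} [Field F] {V : Type*} [AddCommGroup V] [Module F V]
    (h2 : (2 : F) ≠ 0) (l : F) (hl : ¬ IsSquare l)
    (B : V →ₗ[F] V →ₗ[F] F) (Jl : V →ₗ[F] V)
    (hsymm : ∀ u w, B u w = B w u) (hBJ : ∀ u w, B (Jl u) w = B u (Jl w))
    (hJJ : ∀ u, Jl (Jl u) = l • u)
    (e g : V) (he : B e (Jl e) = 0) (hg : B e g ≠ 0) :
    ∃ v, B v v ≠ 0 ∧ B v (Jl v) = 0 := by
  by_cases hee : B e e = 0
  swap
  · exact ⟨e, hee, he⟩
  have hl0 : l ≠ 0 := by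
    rintro rfl
    exact hl ⟨0, by simp⟩
  obtain ⟨α, hα⟩ : ∃ α, α = B e g := ⟨_, rfl⟩
  obtain ⟨β, hβ⟩ : ∃ β, β = B e (Jl g) := ⟨_, rfl⟩
  have hα0 : α ≠ 0 := by
    rw [hα]
    exact hg
  obtain ⟨f, hf⟩ : ∃ f, f = (l * α) • g + (-β) • Jl g := ⟨_, rfl⟩
  have hγ : B e f = l * α ^ 2 - β ^ 2 := by
    rw [hf, map_add, map_smul, map_smul, ← hα, ← hβ]
    simp only [smul_eq_mul]
    ring
  have hγ0 : l * α ^ 2 - β ^ 2 ≠ 0 := by
    intro h
    apply hl
    refine ⟨β / α, ?_⟩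
    field_simp
    linear_combination h
  have heJf : B e (Jl f) = 0 := by
    rw [hf, map_add, map_smul, map_smul, hJJ, map_add, map_smul, map_smul, map_smul, ← hα, ← hβ]
    simp only [smul_eq_mul]
    ring
  obtain ⟨γ, hγdef⟩ : ∃ γ, γ = B e f := ⟨_, rfl⟩
  have hγne : γ ≠ 0 := by
    rw [hγdef, hγ]
    exact hγ0
  obtain ⟨δ, hδ⟩ : ∃ δ, δ = B f (Jl f) := ⟨_, rfl⟩
  obtain ⟨φ, hφ⟩ : ∃ φ, φ = B f f := ⟨_, rfl⟩
  obtain ⟨x, hx⟩ : ∃ x, x = (1 - φ) / (2 * γ) := ⟨_, rfl⟩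
  obtain ⟨y, hy⟩ : ∃ y, y = -δ / (2 * l * γ) := ⟨_, rfl⟩
  have r1 : B e e = 0 := hee
  have r2 : B e (Jl e) = 0 := he
  have r3 : B (Jl e) e = 0 := by
    rw [hsymm]
    exact he
  have r4 : B (Jl e) (Jl e) = 0 := by rw [hBJ, hJJ, map_smul, r1, smul_zero]
  have r5 : B e f = γ := hγdef.symm
  have r6 : B f e = γ := by
    rw [hsymm]
    exact r5
  have r7 : B e (Jl f) = 0 := heJf
  have r8 : B (Jl f) e = 0 := by
    rw [hsymm]
    exact r7
  have r9 : B (Jl e) f = 0 := by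
    rw [hBJ]
    exact r7
  have r10 : B f (Jl e) = 0 := by
    rw [hsymm]
    exact r9
  have r11 : B (Jl e) (Jl f) = l * γ := by rw [hBJ, hJJ, map_smul, r5, smul_eq_mul]
  have r12 : B (Jl f) (Jl e) = l * γ := by
    rw [hsymm]
    exact r11
  have r13 : B f (Jl f) = δ := hδ.symm
  have r14 : B (Jl f) f = δ := by
    rw [hsymm]
    exact r13
  have r15 : B f f = φ := hφ.symm
  refine ⟨f + x • e + y • Jl e, ?_, ?_⟩
  · have h1 : B (f + x • e + y • Jl e) (f + x • e + y • Jl e) = φ + 2 * x * γ := by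
      simp only [map_add, map_smul, LinearMap.add_apply, LinearMap.smul_apply, smul_eq_mul,
        r1, r2, r3, r4, r5, r6, r9, r10, r15]
      ring
    rw [h1, hx]
    have h3 : φ + 2 * ((1 - φ) / (2 * γ)) * γ = 1 := by
      field_simp
      ring
    rw [h3]
    exact one_ne_zero
  · have h1 : B (f + x • e + y • Jl e) (Jl (f + x • e + y • Jl e)) = δ + 2 * l * γ * y := by
      simp only [map_add, map_smul, hJJ, LinearMap.add_apply, LinearMap.smul_apply, smul_eq_mul,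
        r1, r2, r3, r4, r5, r6, r7, r8, r9, r10, r11, r12, r13, r14, r15]
      ring
    rw [h1, hy]
    field_simp
    ring

/-- Chevalley–Warning: a quadratic form in at least three variables over a finite field has a
nontrivial zero -/
theorem exists_isotropic {F : Type u} [Field F] [Fintype F] {ι : Type} [Fintype ι]
    [DecidableEq ι] (hι : 3 ≤ Fintype.card ι) (M : Matrix ι ι F) :
    ∃ e : ι → F, e ≠ 0 ∧ e ⬝ᵥ (M *ᵥ e) = 0 := by
  classical
  obtain ⟨p, hp⟩ := CharP.exists F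
  haveI := hp
  have hpp : p.Prime := CharP.char_is_prime F p
  obtain ⟨f, hfdef⟩ : ∃ f : MvPolynomial ι F, f =
      ∑ i, ∑ j, MvPolynomial.C (M i j) * (MvPolynomial.X i * MvPolynomial.X j) := ⟨_, rfl⟩
  have hdeg : f.totalDegree < Fintype.card ι := by
    have h1 : f.totalDegree ≤ 2 := by
      rw [hfdef]
      apply MvPolynomial.totalDegree_finsetSum_le
      intro i _
      apply MvPolynomial.totalDegree_finsetSum_le
      intro j _
      refine (MvPolynomial.totalDegree_mul _ _).trans ?_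
      rw [MvPolynomial.totalDegree_C]
      refine (Nat.add_le_add_left (MvPolynomial.totalDegree_mul _ _) 0).trans ?_
      rw [MvPolynomial.totalDegree_X, MvPolynomial.totalDegree_X]
    omega
  have heval : ∀ c : ι → F, MvPolynomial.eval c f = c ⬝ᵥ (M *ᵥ c) := by
    intro c
    rw [hfdef]
    simp only [map_sum, map_mul, MvPolynomial.eval_C, MvPolynomial.eval_X, dotProduct,
      Matrix.mulVec, Finset.mul_sum]
    refine Finset.sum_congr rfl fun i _ => Finset.sum_congr rfl fun j _ => ?_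
    ring
  have hdvd := char_dvd_card_solutions p hdeg
  by_contra hcon
  have hone : Fintype.card {x : ι → F // MvPolynomial.eval x f = 0} = 1 := by
    rw [Fintype.card_eq_one_iff]
    refine ⟨⟨0, ?_⟩, ?_⟩
    · rw [heval]
      simp
    · rintro ⟨c, hc⟩
      apply Subtype.ext
      by_contra hne
      apply hcon
      refine ⟨c, hne, ?_⟩
      rw [← heval]
      exact hc
  rw [hone] at hdvd
  exact hpp.one_lt.ne' (Nat.dvd_one.mp hdvd)

theorem S0_transpose (d : ℕ) (F : Type u) [Field F] : (S0 d F)ᵀ = S0 d F := by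
  unfold S0
  rw [Matrix.fromBlocks_transpose]
  simp

theorem S0_mul_S0 (d : ℕ) (F : Type u) [Field F] : S0 d F * S0 d F = 1 := by
  unfold S0
  rw [Matrix.fromBlocks_multiply]
  simp [Matrix.fromBlocks_one]

theorem main : Cfsg.Agent.Lib.Helper41.OFStmt.OmV.{u} := by
  intro F _ _ h2 d hd l hl J hJJ hSJ
  obtain ⟨B, hB⟩ : ∃ B : (Fin d ⊕ Fin d → F) →ₗ[F] (Fin d ⊕ Fin d → F) →ₗ[F] F,
      ∀ u w, B u w = u ⬝ᵥ (S0 d F *ᵥ w) :=
    ⟨Matrix.toLinearMap₂' F (S0 d F), fun u w => Matrix.toLinearMap₂'_apply' _ _ _⟩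
  obtain ⟨Jl, hJl⟩ : ∃ Jl : (Fin d ⊕ Fin d → F) →ₗ[F] (Fin d ⊕ Fin d → F),
      ∀ u, Jl u = J *ᵥ u := ⟨Matrix.toLin' J, fun u => Matrix.toLin'_apply J u⟩
  have hsymm : ∀ u w, B u w = B w u := by
    intro u w
    rw [hB, hB, Matrix.dotProduct_mulVec, ← Matrix.mulVec_transpose, S0_transpose, dotProduct_comm]
  have hBJ : ∀ u w, B (Jl u) w = B u (Jl w) := by
    intro u w
    rw [hB, hB, hJl, hJl, ← Matrix.vecMul_transpose, ← Matrix.dotProduct_mulVec,
      Matrix.mulVec_mulVec, Matrix.mulVec_mulVec, hSJ]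
  have hJJ' : ∀ u, Jl (Jl u) = l • u := by
    intro u
    rw [hJl, hJl, Matrix.mulVec_mulVec, hJJ, Matrix.smul_mulVec, Matrix.one_mulVec]
  have hcard : 3 ≤ Fintype.card (Fin d ⊕ Fin d) := by
    rw [Fintype.card_sum, Fintype.card_fin]
    omega
  obtain ⟨e, he0, he⟩ := exists_isotropic hcard (S0 d F * J)
  have heJ : B e (Jl e) = 0 := by
    rw [hB, hJl, Matrix.mulVec_mulVec]
    exact he
  obtain ⟨i, hi⟩ : ∃ i, e i ≠ 0 := by
    by_contra hcon
    apply he0
    funext i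
    by_contra hne
    exact hcon ⟨i, hne⟩
  have hg : B e (S0 d F *ᵥ Pi.single i 1) ≠ 0 := by
    rw [hB, Matrix.mulVec_mulVec, S0_mul_S0, Matrix.one_mulVec, dotProduct_single, mul_one]
    exact hi
  obtain ⟨v, hv1, hv2⟩ := abstract_core h2 l hl B Jl hsymm hBJ hJJ' e _ heJ hg
  refine ⟨v, ?_, ?_⟩
  · rw [← hB]
    exact hv1
  · rw [← hJl, ← hB]
    exact hv2
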