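import Mathlib
import Cfsg.Agent.Lib.Helper44.TPStmt
import Cfsg.Agent.Lib.Helper44.NegPairs

/-!
# S5973 piece TOP (helper47)

The standard plus form is nondegenerate (`NegPairs.sep_plusQ`) and of plus type.
-/

set_option autoImplicit false

namespace Cfsg.Agent.Lib.Helper47.TPTOP

open Cfsg.Agent.Lib.Helper44.TPStmt
open Cfsg.Agent.Lib.Helper44.NegPairs

universe u

theorem exists_ts {F : Type u} [Field F] (d m : ℕ) (hm : m ≤ d) :
    ∃ W : Submodule F (J d → F), Module.finrank F ↥W = m ∧ TSub d F W := by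
  classical
  obtain ⟨s, hs1, hs2⟩ : ∃ s : Fin m → J d, Function.Injective s ∧ ∀ a, ∃ c, s a = Sum.inl c :=
    ⟨fun a => Sum.inl (Fin.castLE hm a),
      fun a b h => Fin.castLE_injective hm (Sum.inl_injective h), fun a => ⟨_, rfl⟩⟩
  have hli : LinearIndependent F (fun a : Fin m => Pi.basisFun F (J d) (s a)) :=
    (Pi.basisFun F (J d)).linearIndependent.comp s hs1
  refine ⟨Submodule.span F (Set.range (fun a : Fin m => Pi.basisFun F (J d) (s a))), ?_, ?_⟩
  · rw [finrank_span_eq_card hli, Fintype.card_fin]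
  · intro w hw
    have hzero : ∀ i : Fin d, w (Sum.inr i) = 0 := by
      intro i
      refine Submodule.span_induction (p := fun v _ => v (Sum.inr i) = 0) ?_ ?_ ?_ ?_ hw
      · rintro _ ⟨a, rfl⟩
        obtain ⟨c, hc⟩ := hs2 a
        simp [hc]
      · simp
      · intro x y _ _ hx hy
        simp [hx, hy]
      · intro c x _ hx
        simp [hx]
    unfold Cfsg.quadFormPlus
    apply Finset.sum_eq_zero
    intro i _
    rw [hzero i, mul_zero]

theorem main : Cfsg.Agent.Lib.Helper44.TPStmt.Top.{u} := by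
  intro F _ _ d
  refine ⟨?_, ?_⟩
  · intro w _ hw0
    have h1 : ∃ y, QuadraticMap.polar (Cfsg.quadFormPlus d F) w y ≠ 0 := by
      by_contra hcon
      apply hw0
      apply sep_plusQ (F := F) d w
      intro y
      by_contra h
      exact hcon ⟨y, h⟩
    obtain ⟨y, hy⟩ := h1
    refine ⟨⟨y, Submodule.mem_top, ?_⟩, ⟨y, Submodule.mem_top, hy⟩⟩
    rw [QuadraticMap.polar_comm]
    exact hy
  · obtain ⟨U, hU, hTS⟩ := exists_ts (F := F) d d le_rfl
    refine ⟨U, le_top, hTS, ?_⟩
    rw [hU, finrank_top, Module.finrank_fintype_fun_eq_card, Fintype.card_sum, Fintype.card_fin]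
    omega
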