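import Mathlib
import Cfsg.Agent.Lib.Lead.BrHalfDStmt

/-!
# S4504 part D, piece DNoSolv (helper47)

`G` is not solvable: it contains the nontrivial perfect subgroup `nc P`.
-/

set_option autoImplicit false

namespace Cfsg.Agent.Lib.Helper47.BrDDNoSolv

open Cfsg Cfsg.Agent.Lib.Lead

universe u

theorem main : BrHalf.DNoSolv.{u} := by
  intro G _ _ p _ d hsol
  have : Group.IsSolvable G := hsol
  have hle : (d.P : Subgroup G) ≤ BrHalf.nc d.P := Subgroup.le_normalClosure
  have hcard : 1 < Nat.card ↥(BrHalf.nc d.P) := by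
    have h1 := Subgroup.card_le_of_le hle
    have h2 := d.hP
    have h3 := d.hp5
    omega
  have : Nontrivial ↥(BrHalf.nc d.P) := Finite.one_lt_card_iff_nontrivial.1 hcard
  exact (Group.IsSolvable.commutator_lt_top_of_nontrivial ↥(BrHalf.nc d.P)).ne d.hperf

end Cfsg.Agent.Lib.Helper47.BrDDNoSolv
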