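import Mathlib
import Cfsg.Agent.Lib.Lead.BrHalfDStmt

/-!
# S4504 part D, piece DSemi (helper47)

The semi-affine group of a finite field is solvable: its commutators are affine maps
(ring automorphisms of a finite field commute), commutators of affine maps are translations,
and translations commute.
-/

set_option autoImplicit false

namespace Cfsg.Agent.Lib.Helper47.BrDDSemi

open Cfsg Cfsg.Agent.Lib.Lead
open scoped commutatorElement

universe v

/-- ring automorphisms of a finite field commute -/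
theorem ringAut_comm {F : Type v} [Field F] [Finite F] (φ ψ : F ≃+* F) (x : F) :
    φ (ψ x) = ψ (φ x) := by
  obtain ⟨g, hg⟩ := IsCyclic.exists_monoid_generator (α := Fˣ)
  have hgen : ∀ y : F, y ≠ 0 → ∃ i : ℕ, y = (g : F) ^ i := by
    intro y hy
    obtain ⟨i, hi⟩ := (Submonoid.mem_powers_iff _ _).1 (hg (Units.mk0 y hy))
    refine ⟨i, ?_⟩
    have h1 := congrArg (fun u : Fˣ => (u : F)) hi
    simpa using h1.symm
  obtain ⟨k, hk⟩ := hgen (φ (g : F)) ((map_ne_zero φ).2 g.ne_zero)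
  obtain ⟨m, hm⟩ := hgen (ψ (g : F)) ((map_ne_zero ψ).2 g.ne_zero)
  by_cases hx : x = 0
  · subst hx; simp
  · obtain ⟨i, hi⟩ := hgen x hx
    simp only [hi, map_pow, hm, hk]
    ring

/-- the translations -/
def transl (F : Type v) [Field F] : Subgroup (Equiv.Perm F) where
  carrier := {σ | ∃ b : F, ∀ x, σ x = x + b}
  one_mem' := ⟨0, fun x => by simp⟩
  mul_mem' := by
    rintro σ τ ⟨b, hσ⟩ ⟨d, hτ⟩
    exact ⟨d + b, fun x => by simp [hσ, hτ, add_assoc]⟩
  inv_mem' := by
    rintro σ ⟨b, hσ⟩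
    refine ⟨-b, fun x => ?_⟩
    apply σ.injective
    rw [Equiv.Perm.inv_def, Equiv.apply_symm_apply, hσ]
    ring

theorem comm_key {α : Type v} (σ τ : Equiv.Perm α) (x : α) :
    ⁅σ, τ⁆ (τ (σ x)) = σ (τ x) := by
  have h : ⁅σ, τ⁆ * τ * σ = σ * τ := by
    rw [commutatorElement_def]; group
  have h2 := congrArg (fun π : Equiv.Perm α => π x) h
  simpa [Equiv.Perm.mul_apply] using h2

theorem comm_semi {F : Type v} [Field F] [Finite F] (σ τ : Equiv.Perm F)
    (hσ : σ ∈ semiaffineGroup F) (hτ : τ ∈ semiaffineGroup F) :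
    ⁅σ, τ⁆ ∈ affineGroup F := by
  have hρ : ⁅σ, τ⁆ ∈ semiaffineGroup F := by
    rw [commutatorElement_def]
    exact (semiaffineGroup F).mul_mem ((semiaffineGroup F).mul_mem
      ((semiaffineGroup F).mul_mem hσ hτ) ((semiaffineGroup F).inv_mem hσ))
      ((semiaffineGroup F).inv_mem hτ)
  obtain ⟨a, b, φ, hσ⟩ := hσ
  obtain ⟨c, d, ψ, hτ⟩ := hτ
  obtain ⟨e, f, χ, hρ⟩ := hρ
  have key : ∀ x, (e : F) * (χ c * χ (ψ a) * χ (ψ (φ x)) + χ c * χ (ψ b) + χ d) + f
      = a * (φ c * φ (ψ x) + φ d) + b := by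
    intro x
    have h := comm_key σ τ x
    rw [hρ, hτ, hσ, hσ, hτ] at h
    simp only [map_add, map_mul] at h
    linear_combination h
  have k0 := key 0
  have k1 := key 1
  simp only [map_zero, map_one, mul_zero, mul_one, zero_add] at k0 k1
  have hstar : (e : F) * χ c * χ (ψ a) = a * φ c := by linear_combination k1 - k0
  have hne : (a : F) * φ c ≠ 0 := mul_ne_zero a.ne_zero ((map_ne_zero φ).2 c.ne_zero)
  have hχ : ∀ y, χ y = y := by
    intro y
    have hy : y = ψ (φ (φ.symm (ψ.symm y))) := by simp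
    have kx := key (φ.symm (ψ.symm y))
    rw [ringAut_comm φ ψ, ← hy] at kx
    have h3 : (a : F) * φ c * (χ y - y) = 0 := by
      linear_combination kx - k0 - (χ y) * hstar
    rcases mul_eq_zero.1 h3 with h4 | h4
    · exact absurd h4 hne
    · exact sub_eq_zero.1 h4
  exact ⟨e, f, fun x => by rw [hρ, hχ]⟩

theorem comm_aff {F : Type v} [Field F] (σ τ : Equiv.Perm F)
    (hσ : σ ∈ affineGroup F) (hτ : τ ∈ affineGroup F) :
    ⁅σ, τ⁆ ∈ transl F := by
  have hρ : ⁅σ, τ⁆ ∈ affineGroup F := by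
    rw [commutatorElement_def]
    exact (affineGroup F).mul_mem ((affineGroup F).mul_mem
      ((affineGroup F).mul_mem hσ hτ) ((affineGroup F).inv_mem hσ))
      ((affineGroup F).inv_mem hτ)
  obtain ⟨a, b, hσ⟩ := hσ
  obtain ⟨c, d, hτ⟩ := hτ
  obtain ⟨e, f, hρ⟩ := hρ
  have key : ∀ x, (e : F) * (c * (a * x + b) + d) + f = a * (c * x + d) + b := by
    intro x
    have h := comm_key σ τ x
    rw [hρ, hτ, hσ, hσ, hτ] at h
    exact h
  have k0 := key 0
  have k1 := key 1
  have hne : (a : F) * c ≠ 0 := mul_ne_zero a.ne_zero c.ne_zero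
  have he : (e : F) = 1 := by
    have h3 : (a : F) * c * (e - 1) = 0 := by linear_combination k1 - k0
    rcases mul_eq_zero.1 h3 with h4 | h4
    · exact absurd h4 hne
    · exact sub_eq_zero.1 h4
  exact ⟨f, fun x => by rw [hρ, he, one_mul]⟩

theorem comm_transl {F : Type v} [Field F] (σ τ : Equiv.Perm F)
    (hσ : σ ∈ transl F) (hτ : τ ∈ transl F) :
    ⁅σ, τ⁆ = 1 := by
  obtain ⟨b, hσ⟩ := hσ
  obtain ⟨d, hτ⟩ := hτ
  rw [commutatorElement_eq_one_iff_commute]
  refine Equiv.ext fun x => ?_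
  simp only [Equiv.Perm.mul_apply, hσ, hτ]
  ring

theorem main : BrHalf.DSemi.{v} := by
  intro F _ _
  rw [Group.isSolvable_def]
  refine ⟨3, ?_⟩
  have h1 : (derivedSeries ↥(semiaffineGroup F) 1).map (semiaffineGroup F).subtype
      ≤ affineGroup F := by
    rw [derivedSeries_succ, Subgroup.map_commutator, Subgroup.commutator_le]
    intro g₁ hg₁ g₂ hg₂
    exact comm_semi g₁ g₂ (Subgroup.map_subtype_le _ hg₁) (Subgroup.map_subtype_le _ hg₂)
  have h2 : (derivedSeries ↥(semiaffineGroup F) 2).map (semiaffineGroup F).subtype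
      ≤ transl F := by
    rw [derivedSeries_succ, Subgroup.map_commutator, Subgroup.commutator_le]
    intro g₁ hg₁ g₂ hg₂
    exact comm_aff g₁ g₂ (h1 hg₁) (h1 hg₂)
  have h3 : (derivedSeries ↥(semiaffineGroup F) 3).map (semiaffineGroup F).subtype
      ≤ ⊥ := by
    rw [derivedSeries_succ, Subgroup.map_commutator, Subgroup.commutator_le]
    intro g₁ hg₁ g₂ hg₂
    rw [Subgroup.mem_bot]
    exact comm_transl g₁ g₂ (h2 hg₁) (h2 hg₂)
  exact (Subgroup.map_eq_bot_iff_of_injective _ (semiaffineGroup F).subtype_injective).1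
    (le_bot_iff.1 h3)

end Cfsg.Agent.Lib.Helper47.BrDDSemi
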