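import Mathlib
import Cfsg.Agent.Lib.Lead.BrHalfDStmt

/-!
# S4504 part D, piece SylTransfer (helper47)

The Sylow `p`-subgroups of `G` all lie in the normal closure `nc P` of one of them, and
`Q ↦ Q.subtype _` is a bijection onto the Sylow `p`-subgroups of `nc P`.
-/

set_option autoImplicit false

namespace Cfsg.Agent.Lib.Helper47.BrDSylTransfer

open Cfsg Cfsg.Agent.Lib.Lead
open scoped Pointwise

universe u

theorem sylow_le_nc {G : Type u} [Group G] [Finite G] (p : ℕ) [Fact p.Prime] (P Q : Sylow p G) :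
    (Q : Subgroup G) ≤ BrHalf.nc P := by
  obtain ⟨g, rfl⟩ := MulAction.exists_smul_eq G P Q
  have hle : (P : Subgroup G) ≤ BrHalf.nc P := Subgroup.le_normalClosure
  rw [Sylow.coe_subgroup_smul]
  have h1 : MulAut.conj g • (P : Subgroup G) ≤ MulAut.conj g • BrHalf.nc P :=
    Subgroup.pointwise_smul_le_pointwise_smul_iff.2 hle
  rwa [Subgroup.Normal.conj_smul_eq_self g (BrHalf.nc P)] at h1

theorem main : BrHalf.SylTransfer.{u} := by
  intro G _ _ p _ P
  symm
  refine Nat.card_eq_of_bijective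
    (fun Q : Sylow p G => Q.subtype (sylow_le_nc p P Q)) ⟨?_, ?_⟩
  · intro Q Q' h
    exact Sylow.subtype_injective h
  · intro R
    obtain ⟨Q, hQ⟩ := (R.isPGroup'.map (BrHalf.nc P).subtype).exists_le_sylow
    refine ⟨Q, ?_⟩
    symm
    apply Sylow.ext
    refine (R.is_maximal' (Q.subtype (sylow_le_nc p P Q)).isPGroup' ?_).symm
    intro x hx
    rw [Sylow.coe_subtype, Subgroup.mem_subgroupOf]
    exact hQ (Subgroup.mem_map_of_mem _ hx)

end Cfsg.Agent.Lib.Helper47.BrDSylTransfer
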