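import Mathlib
import Cfsg.Agent.S0676
import Cfsg.Agent.Lib.Helper12.Cent
import Cfsg.Agent.Lib.Helper92.D11Stmt

/-!
# S0679 piece CARDNORM (helper47)

The normalizer of a subgroup of order 11 of a permutation group of degree 11 has order `11 d`
with `d ∣ 10`.
-/

set_option autoImplicit false

namespace Cfsg.Agent.Lib.Helper47.D11CARDNORM

open Equiv MulAction

universe u

section
variable {α : Type u} [Fintype α] [DecidableEq α]

/-- A subgroup of order 11 acts transitively on 11 points. -/
theorem trans_of_card (hα : Fintype.card α = 11) (G : Subgroup (Perm α)) (Q : Subgroup G)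
    (hQ : Nat.card Q = 11) : IsPretransitive Q α := by
  have : Fact (Nat.Prime 11) := ⟨by norm_num⟩
  have : Finite Q := Nat.finite_of_card_ne_zero (by omega)
  obtain ⟨q, hq⟩ := exists_prime_orderOf_dvd_card' (G := Q) 11 (by rw [hQ])
  set t : Perm α := ((q : G) : Perm α) with ht
  have hto : orderOf t = 11 := by
    rw [ht, Subgroup.orderOf_coe, Subgroup.orderOf_coe, hq]
  obtain ⟨e, he⟩ := Cfsg.Agent.S0676.exists_coord_of (p := 11) hα t hto
  refine ⟨fun x y => ?_⟩
  obtain ⟨i, rfl⟩ := e.surjective x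
  obtain ⟨j, rfl⟩ := e.surjective y
  refine ⟨q ^ (j - i).val, ?_⟩
  show (((q ^ (j - i).val : Q) : G) : Perm α) (e i) = e j
  rw [Subgroup.coe_pow, Subgroup.coe_pow, ← ht, Cfsg.Agent.S0676.pow_coord e t he]
  congr 1
  rw [ZMod.natCast_zmod_val]; ring

theorem cent_eq (hα : Fintype.card α = 11) (G : Subgroup (Perm α)) (Q : Subgroup G)
    (hQ : Nat.card Q = 11) : Subgroup.centralizer (Q : Set G) = Q := by
  have : Fact (Nat.Prime 11) := ⟨by norm_num⟩
  have := trans_of_card hα G Q hQ
  have : IsCyclic Q := isCyclic_of_prime_card hQ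
  have hcomm : ∀ a b : Q, a * b = b * a := fun a b =>
    (IsCyclic.isMulCommutative (α := Q)).is_comm.comm a b
  have hle : Q.map G.subtype ≤
      Subgroup.centralizer ((Q.map G.subtype : Subgroup (Perm α)) : Set (Perm α)) := by
    rintro _ ⟨a, ha, rfl⟩ _ ⟨b, hb, rfl⟩
    have := hcomm ⟨b, hb⟩ ⟨a, ha⟩
    have h2 : b * a = a * b := congrArg Subtype.val this
    exact congrArg G.subtype h2
  have hc := Cfsg.Agent.Lib.Helper12.Cent.cent_eq G Q Q hle
  apply le_antisymm
  · intro c hc'
    have h1 : (c : Perm α) ∈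
        Subgroup.centralizer ((Q.map G.subtype : Subgroup (Perm α)) : Set (Perm α)) := by
      rintro _ ⟨b, hb, rfl⟩
      have := hc' b hb
      exact congrArg G.subtype this
    rw [hc] at h1
    obtain ⟨c', hc'Q, hcc⟩ := h1
    have : c' = c := G.subtype_injective hcc
    rwa [← this]
  · intro a ha b hb
    have := hcomm ⟨b, hb⟩ ⟨a, ha⟩
    exact congrArg Subtype.val this

theorem card_normalizer (hα : Fintype.card α = 11) (G : Subgroup (Perm α)) (Q : Subgroup G)
    (hQ : Nat.card Q = 11) :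
    ∃ d, d ∣ 10 ∧ Nat.card (Subgroup.normalizer (Q : Set G)) = 11 * d := by
  have : Fact (Nat.Prime 11) := ⟨by norm_num⟩
  have : IsCyclic Q := isCyclic_of_prime_card hQ
  have hker := Subgroup.normalizerMonoidHom_ker (H := Q)
  rw [cent_eq hα G Q hQ] at hker
  refine ⟨Nat.card Q.normalizerMonoidHom.range, ?_, ?_⟩
  · have h1 := Subgroup.card_subgroup_dvd_card Q.normalizerMonoidHom.range
    rw [IsCyclic.card_mulAut, hQ, Nat.totient_prime (by norm_num)] at h1
    exact h1
  · rw [← Subgroup.index_ker, ← Subgroup.card_mul_index Q.normalizerMonoidHom.ker, hker]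
    congr 1
    rw [← hQ]
    exact Nat.card_congr (Subgroup.subgroupOfEquivOfLe Subgroup.le_normalizer).toEquiv

end

theorem main : Cfsg.Agent.Lib.Helper92.D11Stmt.CardNorm.{u} := by
  intro α _ _ hα G Q hQ
  exact card_normalizer hα G Q hQ

end Cfsg.Agent.Lib.Helper47.D11CARDNORM
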