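import Mathlib
import Cfsg.Agent.Lib.Helper92.D11Stmt

/-!
S0679, piece `CENT5`: in a group of order 95040, if the normalizer of a subgroup `⟨z⟩` of
order 5 has order dividing 200, then some involution centralizes `z`.
-/

set_option autoImplicit false

namespace Cfsg.Agent.Lib.Helper47.D11CENT5

open Cfsg.Agent.Lib.Helper92.D11Stmt

universe u

theorem arith1 : ∀ n ≤ 40, n ∣ 40 → 5 ∣ n → (95040 / n) % 5 = 1 → n = 40 := by
  decide

theorem arith2 : ∀ i ≤ 4, i ∣ 4 → i = 1 ∨ i = 2 ∨ i = 4 := by decide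

theorem main : Cent5.{u} := by
  intro G _ _ hG z hz hN
  have : Fact (Nat.Prime 5) := ⟨by norm_num⟩
  obtain ⟨Z, hZ⟩ : ∃ Z : Subgroup G, Z = Subgroup.zpowers z := ⟨_, rfl⟩
  rw [← hZ] at hN
  have hzZ : z ∈ Z := by rw [hZ]; exact Subgroup.mem_zpowers z
  have hZcard : Nat.card Z = 5 := by rw [hZ, Nat.card_zpowers, hz]
  have hZ5 : IsPGroup 5 Z := IsPGroup.of_card (n := 1) (by rw [hZcard]; norm_num)
  obtain ⟨P, hZP⟩ := hZ5.exists_le_sylow
  have hP : Nat.card (P : Subgroup G) = 5 := by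
    obtain ⟨n, hn⟩ := IsPGroup.iff_card.mp P.isPGroup'
    have h5 : 5 ∣ Nat.card (P : Subgroup G) :=
      P.dvd_card_of_dvd_card (by rw [hG]; norm_num)
    have hd : Nat.card (P : Subgroup G) ∣ 95040 := hG ▸ Subgroup.card_subgroup_dvd_card _
    rcases n with _ | _ | n
    · rw [hn] at h5; norm_num at h5
    · rw [hn]; norm_num
    · exfalso
      have h25 : 25 ∣ 95040 := by
        refine dvd_trans ?_ hd
        rw [hn, pow_succ, pow_succ, mul_assoc]
        exact Dvd.intro_left _ rfl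
      norm_num at h25
  have hPZ : (P : Subgroup G) = Z :=
    (Subgroup.eq_of_le_of_card_ge hZP (by rw [hP, hZcard])).symm
  have hidx : Nat.card (Sylow 5 G) =
      (Subgroup.normalizer ((P : Subgroup G) : Set G)).index := P.card_eq_index_normalizer
  have hmod : Nat.card (Sylow 5 G) ≡ 1 [MOD 5] := card_sylow_modEq_one 5 G
  rw [hPZ] at hidx
  have hmul := (Subgroup.normalizer (Z : Set G)).card_mul_index
  rw [hG, ← hidx] at hmul
  have h5N : 5 ∣ Nat.card (Subgroup.normalizer (Z : Set G)) := by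
    rw [← hZcard]; exact Subgroup.card_dvd_of_le Subgroup.le_normalizer
  have hNpos : 0 < Nat.card (Subgroup.normalizer (Z : Set G)) := Nat.card_pos
  have hN40 : Nat.card (Subgroup.normalizer (Z : Set G)) = 40 := by
    have h40 : Nat.card (Subgroup.normalizer (Z : Set G)) ∣ 40 := by
      have h1 := Nat.dvd_gcd hN (Dvd.intro _ hmul)
      have h2 : Nat.gcd 200 95040 = 40 := by norm_num
      rw [h2] at h1
      exact h1
    apply arith1 _ (Nat.le_of_dvd (by norm_num) h40) h40 h5N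
    rw [Nat.div_eq_of_eq_mul_right hNpos hmul.symm]
    exact hmod
  have hcyc : IsCyclic Z := isCyclic_of_prime_card hZcard
  have haut : Nat.card (MulAut Z) = 4 := by
    rw [IsCyclic.card_mulAut, hZcard, Nat.totient_prime (by norm_num)]
  obtain ⟨f, hf⟩ : ∃ f : Subgroup.normalizer (Z : Set G) →* MulAut Z,
      f = Z.normalizerMonoidHom := ⟨_, rfl⟩
  have hker_idx : f.ker.index ∣ 4 := by
    rw [Subgroup.index_ker, ← haut]; exact Subgroup.card_subgroup_dvd_card _
  have hker_mul := f.ker.card_mul_index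
  rw [hN40] at hker_mul
  have hker_even : 2 ∣ Nat.card f.ker := by
    rcases arith2 _ (Nat.le_of_dvd (by norm_num) hker_idx) hker_idx with h | h | h <;>
      rw [h] at hker_mul <;> omega
  obtain ⟨t', ht'⟩ := exists_prime_orderOf_dvd_card' (G := f.ker) 2 hker_even
  obtain ⟨t0, ht0⟩ : ∃ t0 : Subgroup.normalizer (Z : Set G),
      t0 = (t' : Subgroup.normalizer (Z : Set G)) := ⟨_, rfl⟩
  have h1 : t0 ∈ f.ker := ht0 ▸ t'.2
  have h2 : orderOf t0 = 2 := by rw [ht0, Subgroup.orderOf_coe]; exact ht'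
  refine ⟨(t0 : G), ?_, ?_⟩
  · rw [Subgroup.orderOf_coe]; exact h2
  · rw [hf, Subgroup.normalizerMonoidHom_ker, Subgroup.mem_subgroupOf] at h1
    exact (Subgroup.mem_centralizer_iff.mp h1 z hzZ).symm

end Cfsg.Agent.Lib.Helper47.D11CENT5
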