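import Mathlib
import Cfsg.Agent.Lib.Helper47.D11CARDNORM
import Cfsg.Agent.Lib.Helper92.D11Stmt

/-!
# S0679 piece NORMONE (helper47)

In a transitive non-solvable permutation group of degree 11, a subgroup of order 11 is not
self-normalizing (Burnside's transfer theorem).
-/

set_option autoImplicit false

namespace Cfsg.Agent.Lib.Helper47.D11NORMONE

open Equiv MulAction

universe u

section
variable {α : Type u} [Fintype α] [DecidableEq α]

theorem card_dvd (hα : Fintype.card α = 11) (G : Subgroup (Perm α)) :
    Nat.card G ∣ 39916800 := by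
  have h := Subgroup.card_subgroup_dvd_card G
  rw [Nat.card_eq_fintype_card (α := Perm α), Fintype.card_perm, hα] at h
  exact h

theorem fact11 {n : ℕ} (h11 : 11 ∣ n) (h : n ∣ 39916800) : n.factorization 11 = 1 := by
  have hn : n ≠ 0 := by rintro rfl; simp at h
  have hp : Nat.Prime 11 := by norm_num
  have h1 : 1 ≤ n.factorization 11 := by
    rw [← hp.pow_dvd_iff_le_factorization hn]; simpa using h11
  have h2 : ¬ 2 ≤ n.factorization 11 := by
    rw [← hp.pow_dvd_iff_le_factorization hn]
    intro h121
    have : 11 ^ 2 ∣ 39916800 := h121.trans h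
    norm_num at this
  omega

/-- A non-trivial normal subgroup of a transitive group of degree 11 has order divisible
by 11. -/
theorem eleven_dvd_normal (hα : Fintype.card α = 11) (G : Subgroup (Perm α))
    [IsPretransitive G α] (K : Subgroup G) [K.Normal] (hK : K ≠ ⊥) :
    11 ∣ Nat.card K := by
  have hprim : IsPreprimitive G α :=
    IsPreprimitive.of_prime_card (by rw [Nat.card_eq_fintype_card, hα]; norm_num)
  have hfix : fixedPoints K α ≠ Set.univ := by
    intro hfix
    apply hK
    rw [Subgroup.eq_bot_iff_forall]
    intro k hk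
    apply Subtype.ext
    apply Perm.ext
    intro a
    have ha : a ∈ fixedPoints K α := by rw [hfix]; trivial
    exact ha ⟨k, hk⟩
  have hKt : IsPretransitive K α := IsQuasiPreprimitive.isPretransitive_of_normal hfix
  obtain ⟨a⟩ : Nonempty α := Fintype.card_pos_iff.mp (by omega)
  have h := index_stabilizer_of_transitive (G := K) (x := a)
  rw [Nat.card_eq_fintype_card, hα] at h
  rw [← h]
  exact Subgroup.index_dvd_card _

theorem one_false (hα : Fintype.card α = 11) (G : Subgroup (Perm α)) [IsPretransitive G α]
    (hG : ¬ Group.IsSolvable G) (Q : Subgroup G) (hQ : Nat.card Q = 11)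
    (hN : Nat.card (Subgroup.normalizer (Q : Set G)) = 11) : False := by
  have hp11 : Fact (Nat.Prime 11) := ⟨by norm_num⟩
  have hdvd := card_dvd hα G
  have h11 : 11 ∣ Nat.card G := by
    have := Subgroup.card_subgroup_dvd_card Q
    rwa [hQ] at this
  have hfac := fact11 h11 hdvd
  let P : Sylow 11 G := Sylow.ofCard Q (by rw [hQ, hfac, pow_one])
  have hPQ : (P : Subgroup G) = Q := rfl
  have hNQ : Subgroup.normalizer (Q : Set G) = Q := by
    symm
    apply Subgroup.eq_of_le_of_card_ge Subgroup.le_normalizer
    rw [hN, hQ]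
  have hle : Subgroup.normalizer ((P : Subgroup G) : Set G) ≤
      Subgroup.centralizer ((P : Subgroup G) : Set G) := by
    rw [hPQ, hNQ, Cfsg.Agent.Lib.Helper47.D11CARDNORM.cent_eq hα G Q hQ]
  have hcomp := MonoidHom.ker_transferSylow_isComplement' P hle
  set K := (MonoidHom.transferSylow P hle).ker with hK
  have hKcard := hcomp.card_mul_card
  have hKbot : K = ⊥ := by
    by_contra hne
    have h11K := eleven_dvd_normal hα G K hne
    have h121 : 11 * 11 ∣ Nat.card G := by
      rw [← hKcard]
      exact mul_dvd_mul h11K (by rw [hPQ, hQ])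
    have := h121.trans hdvd
    norm_num at this
  rw [hKbot, Subgroup.card_bot, one_mul, hPQ, hQ] at hKcard
  have : IsCyclic G := isCyclic_of_prime_card hKcard.symm
  exact hG (Group.isSolvable_of_comm
    (fun a b => (IsCyclic.isMulCommutative (α := G)).is_comm.comm a b))

end

theorem main : Cfsg.Agent.Lib.Helper92.D11Stmt.NormOne.{u} := by
  intro α _ _ hα G hGt hG Q hQ hN
  exact one_false hα G hG Q hQ hN

end Cfsg.Agent.Lib.Helper47.D11NORMONE
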