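import Mathlib
import Cfsg.Agent.Lib.Helper96.HallAltStmt

/-!
# S2538 piece C0 (helper47)

If `2` is the only prime `≤ card Ω` in `π`, a `π`-subgroup `M` of `Perm Ω` is a `2`-group; a Sylow
`2`-subgroup of `Perm Ω` containing it is a `π`-subgroup not inside the alternating group.
-/

set_option autoImplicit false

namespace Cfsg.Agent.Lib.Helper47.HAC0

open Equiv Cfsg.Agent.Lib.Helper96.HallSymStmt Cfsg.Agent.Lib.Helper96.HallAltStmt

theorem main : Cfsg.Agent.Lib.Helper96.HallAltStmt.C0 := by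
  intro Ω _ _ hcard π M h2 hM hπ
  have : Nontrivial Ω := Fintype.one_lt_card_iff_nontrivial.1 (by omega)
  have hMpos : Nat.card ↥M ≠ 0 := Nat.card_pos.ne'
  have hMcard : Nat.card ↥M = 2 ^ (Nat.card ↥M).primeFactorsList.length := by
    refine Nat.eq_prime_pow_of_unique_prime_dvd hMpos ?_
    intro d hd hdvd
    refine hπ d hd (hM d hd hdvd) ?_
    have h1 : d ∣ Nat.card (Perm Ω) := hdvd.trans (Subgroup.card_subgroup_dvd_card M)
    rw [Nat.card_eq_fintype_card, Fintype.card_perm] at h1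
    exact (hd.dvd_factorial).1 h1
  have hMp : IsPGroup 2 ↥M := IsPGroup.of_card hMcard
  obtain ⟨Q, hQ⟩ := hMp.exists_le_sylow
  refine ⟨Q, hQ, ?_, ?_⟩
  · intro p hp hdvd
    obtain ⟨k, hk⟩ := (IsPGroup.iff_card).1 Q.isPGroup'
    rw [hk] at hdvd
    have hp2 : p = 2 := (Nat.prime_dvd_prime_iff_eq hp Nat.prime_two).1 (hp.dvd_of_dvd_pow hdvd)
    rw [hp2]
    exact h2
  · intro hle
    have h1 : Nat.card ↥(Q : Subgroup (Perm Ω)) ∣ Nat.card ↥(alternatingGroup Ω) :=
      Subgroup.card_dvd_of_le hle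
    have h3 : 2 * Nat.card ↥(alternatingGroup Ω) = Nat.card (Perm Ω) := by
      rw [Nat.card_eq_fintype_card, Nat.card_eq_fintype_card]
      exact two_mul_card_alternatingGroup
    have h4 : 2 * Nat.card ↥(Q : Subgroup (Perm Ω)) ∣ Nat.card (Perm Ω) := by
      rw [← h3]
      exact Nat.mul_dvd_mul_left 2 h1
    rw [Sylow.card_eq_multiplicity, ← pow_succ'] at h4
    exact Nat.pow_succ_factorization_not_dvd Nat.card_pos.ne' Nat.prime_two h4

end Cfsg.Agent.Lib.Helper47.HAC0
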