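import Mathlib
import Cfsg.Agent.Lib.Helper96.HallAltStmt

/-!
# S2538 piece C1 (helper47)

If `π` contains all primes `≤ card Ω`, then `⊤` is a `π`-subgroup of `Perm Ω` not inside the
alternating group.
-/

set_option autoImplicit false

namespace Cfsg.Agent.Lib.Helper47.HAC1

open Equiv Cfsg.Agent.Lib.Helper96.HallSymStmt Cfsg.Agent.Lib.Helper96.HallAltStmt

theorem main : Cfsg.Agent.Lib.Helper96.HallAltStmt.C1 := by
  intro Ω _ _ hcard π M hπ
  refine ⟨⊤, le_top, ?_, ?_⟩
  · intro p hp hdvd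
    rw [Subgroup.card_top, Nat.card_eq_fintype_card, Fintype.card_perm] at hdvd
    exact hπ p hp ((hp.dvd_factorial).1 hdvd)
  · intro hle
    obtain ⟨x, y, hxy⟩ := Fintype.exists_pair_of_one_lt_card (by omega : 1 < Fintype.card Ω)
    have h1 : swap x y ∈ alternatingGroup Ω := hle (Subgroup.mem_top _)
    rw [Equiv.Perm.mem_alternatingGroup, Equiv.Perm.sign_swap hxy] at h1
    exact absurd h1 (by decide)

end Cfsg.Agent.Lib.Helper47.HAC1
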