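import Mathlib
import Cfsg.Agent.Lib.Helper96.HallAltStmt

/-!
# S2538 piece HSYLA (helper47), signature `HSYLA' = HCONJ → HSYLA`

A Hall `π`-subgroup of the alternating group contains a `p`-cycle for every odd prime `p ∈ π`
with `p ≤ card Ω` (after helper13's `HSHSYL`): a `p`-cycle is even, and the group it generates
is conjugate into `M` by `HCONJ`.
-/

set_option autoImplicit false

namespace Cfsg.Agent.Lib.Helper47.HAHSYLA

open Equiv Cfsg.Agent.Lib.Helper96.HallSymStmt Cfsg.Agent.Lib.Helper96.HallAltStmt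

theorem main : Cfsg.Agent.Lib.Helper96.HallAltStmt.HSYLA' := by
  intro hconj Ω _ _ π M hM p hp hpπ hp2 hle
  -- a `p`-cycle
  obtain ⟨c, hc⟩ : ∃ c : Perm Ω, c.cycleType = {p} := by
    rw [Equiv.Perm.exists_with_cycleType_iff]
    refine ⟨by simpa using hle, ?_⟩
    intro a ha
    rw [Multiset.mem_singleton] at ha
    rw [ha]; exact hp.two_le
  have hcyc : c.IsCycle := by
    rw [← Equiv.Perm.card_cycleType_eq_one, hc]; simp
  have hsupp : c.support.card = p := by
    rw [← Equiv.Perm.sum_cycleType, hc]; simp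
  have hord : orderOf c = p := by rw [hcyc.orderOf, hsupp]
  have hpg : IsPGroup p (Subgroup.zpowers c) := by
    apply IsPGroup.of_card (n := 1)
    rw [Nat.card_zpowers, hord, pow_one]
  have hodd : Odd p := hp.odd_of_ne_two hp2
  have hcalt : c ∈ alternatingGroup Ω := by
    rw [Equiv.Perm.mem_alternatingGroup, hcyc.sign, hsupp, hodd.neg_one_pow, neg_neg]
  have hV : Subgroup.zpowers c ≤ alternatingGroup Ω := (Subgroup.zpowers_le).2 hcalt
  obtain ⟨g, -, hg⟩ := hconj (Perm Ω) π M (alternatingGroup Ω) (Subgroup.zpowers c) p hp hpπ hM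
    hV hpg
  refine ⟨g * c * g⁻¹, hg c (Subgroup.mem_zpowers c), hcyc.conj, ?_⟩
  rw [Equiv.Perm.card_support_conj, hsupp]

end Cfsg.Agent.Lib.Helper47.HAHSYLA
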