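import Mathlib
import Cfsg.Agent.Lib.Helper40.HPStmt
import Cfsg.Agent.Lib.Helper2.NegSqGen
import Cfsg.Agent.Lib.Helper14.TypeCrit
import Cfsg.Agent.Lib.Helper44.NegPairs
import Cfsg.Agent.Lib.Helper44.FinSq

/-!
# S5974 piece NEGSQNOHYP (helper47)

`q ≡ 3 (mod 4)`, `m ≡ 2 (mod 4)`: an isometry `x` of the plus form with `x * x = -1` stabilises no
hyperbolic `m`-space `W`.  On a basis of `W`: the Gram matrix `S` has square determinant
(`Helper2.NegSqGen.isSquare_det`), while a totally singular subspace of half the dimension `k`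
(odd) makes `(-1) ^ k * det S` a square (`Helper14.TypeCrit.isSquare_of_isotropic`); so `-1` would
be a square.
-/

set_option autoImplicit false

namespace Cfsg.Agent.Lib.Helper47.HPNEGSQNOHYP

open Cfsg.Agent.Lib.Helper40.HPStmt
open Cfsg.Agent.Lib.Helper94.OPStmt (P FxP NDegP StabP NP)
open Cfsg.Agent.Lib.Helper44.NegPairs
open scoped Matrix

universe u

theorem main : NegSqNoHyp.{u} := by
  classical
  intro F _ _ hq d m hm x hx hxx W hW hstab
  obtain ⟨hfin, hnd, U, hUW, hUdim, hU0⟩ := hW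
  have hodd : Odd (Fintype.card F) := Nat.odd_iff.mpr (by omega)
  have h2 : (2 : F) ≠ 0 := Cfsg.Agent.Lib.Helper44.FinSq.two_ne_zero_of_odd_card hodd
  have hQ : ∀ u, plusQ d F ((x : Matrix (P d) (P d) F) *ᵥ u) = plusQ d F u := fun u => hx u u
  have hpol : ∀ u v, QuadraticMap.polar (plusQ d F) ((x : Matrix (P d) (P d) F) *ᵥ u)
      ((x : Matrix (P d) (P d) F) *ᵥ v) = QuadraticMap.polar (plusQ d F) u v := by
    intro u v
    unfold QuadraticMap.polar
    rw [← Matrix.mulVec_add, hQ, hQ, hQ]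
  obtain ⟨B, hB⟩ : ∃ B : LinearMap.BilinForm F ↥W, ∀ u v : ↥W,
      B u v = QuadraticMap.polar (plusQ d F) (u : P d → F) (v : P d → F) :=
    ⟨LinearMap.BilinForm.restrict (QuadraticMap.polarBilin (plusQ d F)) W, fun u v => rfl⟩
  obtain ⟨b⟩ : Nonempty (Module.Basis (Fin m) F ↥W) := ⟨Module.finBasisOfFinrankEq F ↥W hfin⟩
  have hmaps : ∀ w ∈ W, Matrix.toLin' (x : Matrix (P d) (P d) F) w ∈ W :=
    fun w hw => hstab (Submodule.mem_map_of_mem hw)
  obtain ⟨xW, hxW⟩ : ∃ xW : ↥W →ₗ[F] ↥W, ∀ w : ↥W,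
      ((xW w : ↥W) : P d → F) = (x : Matrix (P d) (P d) F) *ᵥ (w : P d → F) :=
    ⟨(Matrix.toLin' (x : Matrix (P d) (P d) F)).restrict hmaps, fun w => by
      rw [LinearMap.coe_restrict_apply, Matrix.toLin'_apply]⟩
  have hSt : (LinearMap.BilinForm.toMatrix b B)ᵀ = LinearMap.BilinForm.toMatrix b B := by
    ext i j
    rw [Matrix.transpose_apply, LinearMap.BilinForm.toMatrix_apply,
      LinearMap.BilinForm.toMatrix_apply, hB, hB, QuadraticMap.polar_comm]
  have hBnd : B.Nondegenerate := by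
    refine ⟨fun u hu => ?_, fun v hv => ?_⟩
    · by_contra hne
      have hne' : (u : P d → F) ≠ 0 := fun h0 => hne (Subtype.ext h0)
      obtain ⟨v, hv, hv0⟩ := hnd u u.2 hne'
      apply hv0
      have h3 := hu ⟨v, hv⟩
      rw [hB] at h3
      exact h3
    · by_contra hne
      have hne' : (v : P d → F) ≠ 0 := fun h0 => hne (Subtype.ext h0)
      obtain ⟨w, hw, hw0⟩ := hnd v v.2 hne'
      apply hw0
      have h3 := hv ⟨w, hw⟩
      rw [hB, QuadraticMap.polar_comm] at h3
      exact h3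
  have hdet : (LinearMap.BilinForm.toMatrix b B).det ≠ 0 :=
    (LinearMap.BilinForm.nondegenerate_iff_det_ne_zero b).mp hBnd
  have hXX : LinearMap.toMatrix b b xW * LinearMap.toMatrix b b xW = -1 := by
    rw [← LinearMap.toMatrix_mul]
    have hsq : xW * xW = -1 := by
      apply LinearMap.ext
      intro w
      apply Subtype.ext
      rw [Module.End.mul_apply, hxW, hxW, Matrix.mulVec_mulVec, hxx, Matrix.neg_mulVec,
        Matrix.one_mulVec]
      rfl
    rw [hsq]
    have h1 : LinearMap.toMatrix b b (-(1 : ↥W →ₗ[F] ↥W)) = -LinearMap.toMatrix b b 1 :=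
      map_neg (LinearMap.toMatrix b b) (1 : ↥W →ₗ[F] ↥W)
    rw [LinearMap.toMatrix_one] at h1
    exact h1
  have hcomp : B.comp xW xW = B := by
    refine LinearMap.ext₂ fun u v => ?_
    rw [LinearMap.BilinForm.comp_apply, hB, hB, hxW, hxW, hpol]
  have hXS : (LinearMap.toMatrix b b xW)ᵀ * LinearMap.BilinForm.toMatrix b B *
      LinearMap.toMatrix b b xW = LinearMap.BilinForm.toMatrix b B := by
    rw [← LinearMap.BilinForm.toMatrix_comp b b B xW xW, hcomp]
  have hsq1 : IsSquare (LinearMap.BilinForm.toMatrix b B).det :=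
    Cfsg.Agent.Lib.Helper2.NegSqGen.isSquare_det h2 _ _ hSt hdet hXS hXX
  obtain ⟨k, hk⟩ : ∃ k, m = 2 * k := ⟨m / 2, by omega⟩
  have hkodd : Odd k := by
    rw [Nat.odd_iff]
    omega
  have hUWdim : Module.finrank F ↥(U.comap W.subtype) = k := by
    rw [LinearEquiv.finrank_eq (Submodule.comapSubtypeEquivOfLe hUW)]
    omega
  have hBsymm : B.IsSymm := ⟨fun a c => by rw [hB, hB, QuadraticMap.polar_comm]⟩
  have hti : ∀ a ∈ U.comap W.subtype, ∀ c ∈ U.comap W.subtype, B a c = 0 := by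
    intro a ha c hc
    rw [hB]
    have ha' : (a : P d → F) ∈ U := ha
    have hc' : (c : P d → F) ∈ U := hc
    have h1 : plusQ d F ((a : P d → F) + (c : P d → F)) = 0 := hU0 _ (U.add_mem ha' hc')
    have h3 : plusQ d F (a : P d → F) = 0 := hU0 _ ha'
    have h4 : plusQ d F (c : P d → F) = 0 := hU0 _ hc'
    unfold QuadraticMap.polar
    rw [h1, h3, h4]
    simp
  have hsq2 := Cfsg.Agent.Lib.Helper14.TypeCrit.isSquare_of_isotropic B hBsymm k
    (by rw [hfin, hk]) b (U.comap W.subtype) hUWdim hti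
  rw [hkodd.neg_one_pow] at hsq2
  have hneg : IsSquare (-1 : F) := by
    obtain ⟨a, ha⟩ := hsq1
    obtain ⟨c, hc⟩ := hsq2
    have ha0 : a ≠ 0 := by
      rintro rfl
      rw [mul_zero] at ha
      exact hdet ha
    rw [ha] at hc
    refine ⟨c / a, ?_⟩
    field_simp
    linear_combination hc
  exact (FiniteField.isSquare_neg_one_iff.mp hneg) hq

end Cfsg.Agent.Lib.Helper47.HPNEGSQNOHYP
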