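import Mathlib
import Cfsg.Agent.Lib.Helper96.HallSymStmt

/-!
# S2536 piece EX1 (helper47)

For `n` prime, a point stabilizer of `Perm (Fin n)` is a Hall `π`-subgroup when `π` contains
exactly the primes `< n` among the primes `≤ n`.
-/

set_option autoImplicit false

namespace Cfsg.Agent.Lib.Helper47.HSEX1

open Equiv Cfsg.Agent.Lib.Helper96.HallSymStmt

theorem main : Cfsg.Agent.Lib.Helper96.HallSymStmt.EX1 := by
  intro n π hn hπ
  have hn0 : 0 < n := hn.pos
  have : NeZero n := ⟨hn0.ne'⟩
  have hidx : (MulAction.stabilizer (Perm (Fin n)) (0 : Fin n)).index = n := by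
    rw [MulAction.index_stabilizer_of_transitive, Nat.card_eq_fintype_card, Fintype.card_fin]
  have hcard : Nat.card (MulAction.stabilizer (Perm (Fin n)) (0 : Fin n)) * n = n.factorial := by
    have h1 := Subgroup.card_mul_index (MulAction.stabilizer (Perm (Fin n)) (0 : Fin n))
    rw [hidx, Nat.card_eq_fintype_card (α := Perm (Fin n)), Fintype.card_perm,
      Fintype.card_fin] at h1
    exact h1
  have hcard' : Nat.card (MulAction.stabilizer (Perm (Fin n)) (0 : Fin n)) =
      (n - 1).factorial := by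
    obtain ⟨m, rfl⟩ : ∃ m, n = m + 1 := ⟨n - 1, by omega⟩
    rw [Nat.factorial_succ, mul_comm] at hcard
    have h2 := Nat.eq_of_mul_eq_mul_left (by omega : 0 < m + 1) hcard
    rw [h2]; rfl
  refine ⟨MulAction.stabilizer (Perm (Fin n)) (0 : Fin n), ?_, ?_⟩
  · intro p hp hdvd
    rw [hcard'] at hdvd
    have hle : p ≤ n - 1 := (hp.dvd_factorial).1 hdvd
    exact (hπ p hp (by omega)).2 (by omega)
  · intro p hp hpπ hdvd
    rw [hidx] at hdvd
    have h1 : p = n := (Nat.prime_dvd_prime_iff_eq hp hn).1 hdvd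
    subst h1
    exact absurd ((hπ p hp le_rfl).1 hpπ) (lt_irrefl p)

end Cfsg.Agent.Lib.Helper47.HSEX1
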