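import Mathlib
import Cfsg.Agent.Lib.Helper96.HallSymStmt

/-!
# S2536 piece EX7 (helper47)

`Sym(3) × Sym(4)` (order `144`, index `35`) is a Hall `{2,3}`-subgroup of `Perm (Fin 7)`.
-/

set_option autoImplicit false

namespace Cfsg.Agent.Lib.Helper47.HSEX7

open Equiv Cfsg.Agent.Lib.Helper96.HallSymStmt

theorem card_lt3 : Fintype.card {i : Fin 7 // (i : ℕ) < 3} = 3 := by
  decide

theorem card_nlt3 : Fintype.card {i : Fin 7 // ¬ (i : ℕ) < 3} = 4 := by
  decide

theorem card_range :
    Nat.card (Equiv.Perm.subtypeCongrHom (fun i : Fin 7 => (i : ℕ) < 3)).range = 144 := by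
  have hinj := Equiv.Perm.subtypeCongrHom_injective (fun i : Fin 7 => (i : ℕ) < 3)
  rw [Nat.card_congr (MonoidHom.ofInjective hinj).symm.toEquiv, Nat.card_prod,
    Nat.card_eq_fintype_card, Nat.card_eq_fintype_card, Fintype.card_perm, Fintype.card_perm,
    card_lt3, card_nlt3]
  decide

theorem index_range :
    (Equiv.Perm.subtypeCongrHom (fun i : Fin 7 => (i : ℕ) < 3)).range.index = 35 := by
  have h1 := Subgroup.card_mul_index (Equiv.Perm.subtypeCongrHom (fun i : Fin 7 => (i : ℕ) < 3)).range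
  rw [card_range, Nat.card_eq_fintype_card (α := Perm (Fin 7)), Fintype.card_perm,
    Fintype.card_fin] at h1
  have h2 : Nat.factorial 7 = 144 * 35 := by decide
  rw [h2] at h1
  exact Nat.eq_of_mul_eq_mul_left (by norm_num) h1

theorem main : Cfsg.Agent.Lib.Helper96.HallSymStmt.EX7 := by
  intro π hπ
  refine ⟨(Equiv.Perm.subtypeCongrHom (fun i : Fin 7 => (i : ℕ) < 3)).range, ?_, ?_⟩
  · intro p hp hdvd
    rw [card_range] at hdvd
    have h144 : (144 : ℕ) = 2 ^ 4 * 3 ^ 2 := by norm_num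
    rw [h144] at hdvd
    rcases (Nat.Prime.dvd_mul hp).1 hdvd with h | h
    · have h2 : p = 2 := (Nat.prime_dvd_prime_iff_eq hp Nat.prime_two).1 (hp.dvd_of_dvd_pow h)
      subst h2
      exact (hπ 2 hp (by norm_num)).2 (Or.inl rfl)
    · have h3 : p = 3 := (Nat.prime_dvd_prime_iff_eq hp Nat.prime_three).1 (hp.dvd_of_dvd_pow h)
      subst h3
      exact (hπ 3 hp (by norm_num)).2 (Or.inr rfl)
  · intro p hp hpπ hdvd
    rw [index_range] at hdvd
    have h35 : (35 : ℕ) = 5 * 7 := by norm_num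
    rw [h35] at hdvd
    rcases (Nat.Prime.dvd_mul hp).1 hdvd with h | h
    · have h5 : p = 5 := (Nat.prime_dvd_prime_iff_eq hp (by norm_num)).1 h
      subst h5
      have := (hπ 5 hp (by norm_num)).1 hpπ
      omega
    · have h7 : p = 7 := (Nat.prime_dvd_prime_iff_eq hp (by norm_num)).1 h
      subst h7
      have := (hπ 7 hp (by norm_num)).1 hpπ
      omega

end Cfsg.Agent.Lib.Helper47.HSEX7
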