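import Mathlib
import Cfsg.Agent.Lib.Helper59.HTStmt

/-!
# S3371 piece ABASIS (helper47)

`|V| = q ^ 2`: coordinates in which `a = diag(1, -1)` and a given involution `t ∉ C_G(a)` is
the swap.
-/

set_option autoImplicit false

namespace Cfsg.Agent.Lib.Helper47.HTABASIS

open Cfsg.Agent.Lib.Helper59.HTStmt

universe u v

theorem main : ABasis.{u, v} := by
  intro q _ V _ _ _ _ G _ _ ρ hq2 hρ hZ a z hF hV t htt hta
  classical
  have hqr : q.Prime := Fact.out
  have h2 : (2 : ZMod q) ≠ 0 := by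
    intro h
    have h' : ((2 : ℕ) : ZMod q) = 0 := by exact_mod_cast h
    rw [ZMod.natCast_eq_zero_iff] at h'
    exact hq2 ((Nat.prime_dvd_prime_iff_eq hqr Nat.prime_two).1 h')
  have hρmul : ∀ (x y : G) (v : V), ρ (x * y) v = ρ x (ρ y v) := fun x y v => by
    rw [map_mul]; rfl
  have hρ1 : ∀ v : V, ρ 1 v = v := fun v => by rw [map_one]; rfl
  -- `ρ z = -1`
  have hz : ∀ v : V, ρ z v = -v := by
    intro v
    have h1 : ρ z (v + ρ z v) = v + ρ z v := by
      rw [map_add, ← hρmul, hF.zz, hρ1, add_comm]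
    by_contra hne
    have h3 : v + ρ z v ≠ 0 := by
      intro h
      apply hne
      exact eq_neg_of_add_eq_zero_right h
    exact hZ z hF.zc hF.z1 _ h3 h1
  -- a non-zero vector fixed by `a`
  obtain ⟨v0, hv0⟩ : ∃ v : V, ρ a v ≠ -v := by
    by_contra hcon
    push Not at hcon
    apply hF.az
    apply hρ
    ext v
    rw [hcon v, hz v]
  have he₁0 : v0 + ρ a v0 ≠ 0 := by
    intro h
    apply hv0
    exact eq_neg_of_add_eq_zero_right h
  have hae₁ : ρ a (v0 + ρ a v0) = v0 + ρ a v0 := by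
    rw [map_add, ← hρmul, hF.aa, hρ1, add_comm]
  obtain ⟨e₁, he₁⟩ : ∃ e₁ : V, e₁ = v0 + ρ a v0 := ⟨_, rfl⟩
  rw [← he₁] at he₁0 hae₁
  have he₂0 : ρ t e₁ ≠ 0 := by
    intro h
    apply he₁0
    apply (ρ t).injective
    rw [map_zero]; exact h
  have hzc : ∀ g : G, g * z = z * g := fun g => Subgroup.mem_center_iff.1 hF.zc g
  have hat : a * t = z * (t * a) := by
    have h1 : t * a = a * z * t := by rw [← hta]; group
    rw [h1, ← mul_assoc, ← mul_assoc, ← hzc a, mul_assoc a z z, hF.zz, mul_one]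
  have hae₂ : ρ a (ρ t e₁) = -(ρ t e₁) := by
    rw [← hρmul, hat, hρmul, hρmul, hae₁, hz]
  have hte₂ : ρ t (ρ t e₁) = e₁ := by
    rw [← hρmul, htt, hρ1]
  obtain ⟨e₂, he₂⟩ : ∃ e₂ : V, e₂ = ρ t e₁ := ⟨_, rfl⟩
  rw [← he₂] at he₂0 hae₂ hte₂
  have hli : LinearIndependent (ZMod q) ![e₁, e₂] := by
    rw [LinearIndependent.pair_iff' he₁0]
    intro s hs
    have h1 := congrArg (ρ a) hs
    rw [map_smul, hae₁, hae₂, hs] at h1
    -- `e₂ = -e₂`
    have h3 : (2 : ZMod q) • e₂ = 0 := by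
      rw [two_smul]
      nth_rewrite 1 [h1]
      exact neg_add_cancel e₂
    rcases smul_eq_zero.1 h3 with h | h
    · exact h2 h
    · exact he₂0 h
  have hfin : Module.finrank (ZMod q) V = 2 := by
    have h1 := Module.natCard_eq_pow_finrank (K := ZMod q) (V := V)
    rw [hV, Nat.card_zmod] at h1
    exact (Nat.pow_right_injective hqr.two_le h1).symm
  let B : Module.Basis (Fin 2) (ZMod q) V :=
    basisOfLinearIndependentOfCardEqFinrank hli (by rw [Fintype.card_fin, hfin])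
  have hB : ⇑B = ![e₁, e₂] := coe_basisOfLinearIndependentOfCardEqFinrank hli _
  have hB0 : B 0 = e₁ := by rw [hB]; rfl
  have hB1 : B 1 = e₂ := by rw [hB]; rfl
  have hexp : ∀ v : V, v = B.equivFun v 0 • e₁ + B.equivFun v 1 • e₂ := by
    intro v
    have h1 := B.sum_equivFun v
    rw [Fin.sum_univ_two, hB0, hB1] at h1
    exact h1.symm
  have hsymm : ∀ x y : ZMod q, B.equivFun.symm ![x, y] = x • e₁ + y • e₂ := by
    intro x y
    rw [Module.Basis.equivFun_symm_apply, Fin.sum_univ_two, hB0, hB1]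
    rfl
  refine ⟨B.equivFun, ?_, ?_⟩
  · intro v
    apply B.equivFun.symm.injective
    rw [LinearEquiv.symm_apply_apply, hsymm]
    conv_lhs => rw [hexp v]
    rw [map_add, map_smul, map_smul, hae₁, hae₂, smul_neg, neg_smul]
  · intro v
    apply B.equivFun.symm.injective
    rw [LinearEquiv.symm_apply_apply, hsymm]
    conv_lhs => rw [hexp v]
    rw [map_add, map_smul, map_smul, hte₂, ← he₂, add_comm]

end Cfsg.Agent.Lib.Helper47.HTABASIS
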