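import Mathlib
import Cfsg.Agent.Lib.Helper59.HTStmt
import Cfsg.Agent.Lib.Helper47.Imprim
import Cfsg.Agent.H32.PGroup

/-!
# S3371 piece AODD (helper47)

A half-transitive `p`-group (`p` odd, `p ≠ q`) of linear maps of an `F_q`-space has no normal
subgroup `E ≅ C_p × C_p`.
-/

set_option autoImplicit false

namespace Cfsg.Agent.Lib.Helper47.HTAODD

open Cfsg.Agent.Lib.Helper59.HTStmt
open Cfsg.Agent.Lib.Helper47.Imprim

universe u v

theorem main : AOdd.{u, v} := by
  intro q _ V _ _ _ _ G _ _ p _ hG hpq hp2 ρ hρ hEq hZ E hEn hE2 hEp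
  classical
  have : Fintype G := Fintype.ofFinite G
  have hpr : p.Prime := Fact.out
  have hqr : q.Prime := Fact.out
  -- multiplication by `p` is injective on `V`
  have hp : ∀ v : V, p • v = 0 → v = 0 := by
    intro v hv
    by_contra hv0
    apply hpq
    have h1 : (p : ZMod q) • v = 0 := by rw [Nat.cast_smul_eq_nsmul]; exact hv
    rcases smul_eq_zero.1 h1 with h | h
    · rw [ZMod.natCast_eq_zero_iff] at h
      exact ((Nat.prime_dvd_prime_iff_eq hqr hpr).1 h).symm
    · exact absurd h hv0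
  -- `E` is abelian
  have hEcomm : ∀ a ∈ E, ∀ b ∈ E, a * b = b * a := by
    intro a ha b hb
    have hc : IsMulCommutative E := IsPGroup.isMulCommutative_of_card_eq_prime_sq hE2
    have := mul_comm' (⟨a, ha⟩ : E) ⟨b, hb⟩
    exact congrArg Subtype.val this
  have hcjE : ∀ g : G, cj g E = E := by
    intro g; ext x; rw [mem_cj]
    constructor
    · intro h; have := hEn.conj_mem _ h g; simpa [mul_assoc] using this
    · intro h; have := hEn.conj_mem _ h g⁻¹; simpa [mul_assoc] using this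
  have hEne : E ≠ ⊥ := by
    intro h
    rw [h, Subgroup.card_bot] at hE2
    have := hpr.one_lt
    nlinarith
  -- `Fix(E) = 0`
  have hfixE : fix ρ E = ⊥ := by
    have := hEn
    obtain ⟨z, hzE, hz1, hzc⟩ := Cfsg.Agent.H32.exists_mem_center_of_normal hG E hEne
    rw [eq_bot_iff]
    intro v hv
    rw [Submodule.mem_bot]
    by_contra hv0
    exact hZ z hzc hz1 v hv0 (hv z hzE)
  obtain ⟨C, hC, hCne⟩ := exists_fix_ne_bot ρ hpr E hE2 hEp hfixE hp
  obtain ⟨v₁, hv₁C, hv₁⟩ : ∃ v ∈ fix ρ C, v ≠ 0 := by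
    by_contra hcon
    push Not at hcon
    exact hCne ((Submodule.eq_bot_iff _).2 hcon)
  have hCcard : Nat.card C = p := (mem_ordP.1 hC).2
  -- `C` is not normal
  obtain ⟨g, hg⟩ : ∃ g : G, cj g C ≠ C := by
    by_contra hcon
    push Not at hcon
    have hCn : C.Normal := by
      constructor
      intro n hn g
      have h1 : g * n * g⁻¹ ∈ cj g C := by
        rw [mem_cj]
        have h2 : g⁻¹ * (g * n * g⁻¹) * g = n := by group
        rw [h2]; exact hn
      rwa [hcon g] at h1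
    have hCbot : C ≠ ⊥ := by
      intro h
      rw [h, Subgroup.card_bot] at hCcard
      exact hpr.one_lt.ne hCcard
    obtain ⟨z, hzC, hz1, hzc⟩ := Cfsg.Agent.H32.exists_mem_center_of_normal hG C hCbot
    exact hZ z hzc hz1 v₁ hv₁ (hv₁C z hzC)
  have hcjord : ∀ (u : G) (D : Subgroup G), D ∈ ordP E p → cj u D ∈ ordP E p := by
    intro u D hD
    rw [mem_ordP]
    refine ⟨?_, ?_⟩
    · rw [← hcjE u]; exact Subgroup.map_mono (mem_ordP.1 hD).1
    · rw [card_cj, (mem_ordP.1 hD).2]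
  have hcjinj : ∀ (u : G) (D D' : Subgroup G), cj u D = cj u D' → D = D' := by
    intro u D D' h
    have h1 := congrArg (cj u⁻¹) h
    rwa [← cj_mul, ← cj_mul, inv_mul_cancel, cj_one, cj_one] at h1
  have hC'ord : cj g C ∈ ordP E p := hcjord g C hC
  have hv₂C' : ρ g v₁ ∈ fix ρ (cj g C) := map_mem_fix_cj ρ g hv₁C
  have hv₂ : ρ g v₁ ≠ 0 := by
    intro h
    apply hv₁
    apply (ρ g).injective
    rw [map_zero]; exact h
  -- fixed spaces of distinct subgroups of order `p` of `E` meet trivially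
  have hinter : ∀ D D' : Subgroup G, D ∈ ordP E p → D' ∈ ordP E p → D ≠ D' →
      ∀ w, w ∈ fix ρ D → w ∈ fix ρ D' → w = 0 := by
    intro D D' hD hD' hne w hw hw'
    have h1 := mem_fix_sup ρ hw hw'
    rw [sup_eq_of_ordP hpr E hE2 hD hD' hne, hfixE, Submodule.mem_bot] at h1
    exact h1
  -- the averaging operator of `C`
  have hP1 : ∀ w ∈ fix ρ C, avg ρ C w = p • w := by
    intro w hw
    rw [avg_of_mem_fix ρ C hw, hCcard]
  have hP0 : ∀ D : Subgroup G, D ∈ ordP E p → D ≠ C → ∀ w ∈ fix ρ D, avg ρ C w = 0 := by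
    intro D hD hne w hw
    apply hinter C D hC hD (Ne.symm hne) _ (avg_mem_fix ρ C w)
    exact avg_comm_fix ρ C D
      (fun c hc d hd => hEcomm c ((mem_ordP.1 hC).1 hc) d ((mem_ordP.1 hD).1 hd)) hw
  -- the stabilizer of `v₁ + v₂` lies in the stabilizer of `v₁`
  have hkey : ∀ u : G, ρ u (v₁ + ρ g v₁) = v₁ + ρ g v₁ → ρ u v₁ = v₁ := by
    intro u hu
    rw [map_add] at hu
    have hu1 : ρ u v₁ ∈ fix ρ (cj u C) := map_mem_fix_cj ρ u hv₁C
    have hu2 : ρ u (ρ g v₁) ∈ fix ρ (cj u (cj g C)) := map_mem_fix_cj ρ u hv₂C'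
    have hPeq : avg ρ C (ρ u v₁) + avg ρ C (ρ u (ρ g v₁)) = p • v₁ := by
      rw [← map_add, hu, map_add, hP1 v₁ hv₁C, hP0 (cj g C) hC'ord hg _ hv₂C', add_zero]
    by_cases h1 : cj u C = C
    · have h2 : cj u (cj g C) ≠ C := by
        intro h
        exact hg (hcjinj u _ _ (h.trans h1.symm))
      rw [hP0 _ (hcjord u _ hC'ord) h2 _ hu2, add_zero] at hPeq
      rw [h1] at hu1
      rw [hP1 _ hu1] at hPeq
      have h3 : p • (ρ u v₁ - v₁) = 0 := by rw [smul_sub, hPeq, sub_self]
      exact sub_eq_zero.1 (hp _ h3)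
    · exfalso
      rw [hP0 _ (hcjord u C hC) h1 _ hu1, zero_add] at hPeq
      by_cases h2 : cj u (cj g C) = C
      · rw [h2] at hu2
        rw [hP1 _ hu2] at hPeq
        have h3 : ρ u (ρ g v₁) = v₁ := by
          have h3' : p • (ρ u (ρ g v₁) - v₁) = 0 := by rw [smul_sub, hPeq, sub_self]
          exact sub_eq_zero.1 (hp _ h3')
        have h4 : ρ u v₁ = ρ g v₁ := by
          rw [h3] at hu
          exact add_right_cancel (hu.trans (add_comm _ _))
        have h5 : ρ (u * u) v₁ = v₁ := by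
          rw [map_mul]
          show ρ u (ρ u v₁) = v₁
          rw [h4, h3]
        obtain ⟨k, hk⟩ := hG u
        have hodd : Odd (p ^ k) := (hpr.odd_of_ne_two hp2).pow
        obtain ⟨m, hm⟩ := hodd
        have hpow : ∀ j : ℕ, ρ ((u * u) ^ j) v₁ = v₁ := by
          intro j
          induction j with
          | zero => simp
          | succ j ih =>
            rw [pow_succ, map_mul]
            show ρ ((u * u) ^ j) (ρ (u * u) v₁) = v₁
            rw [h5, ih]
        have hu' : (u * u) ^ (m + 1) = u := by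
          rw [← pow_two, ← pow_mul]
          have h6 : 2 * (m + 1) = p ^ k + 1 := by omega
          rw [h6, pow_succ, hk, one_mul]
        have h6 : ρ u v₁ = v₁ := by
          have h7 := hpow (m + 1)
          rwa [hu'] at h7
        have h7 : v₁ ∈ fix ρ (cj g C) := by
          have h8 : ρ g v₁ = v₁ := by rw [← h4, h6]
          rw [← h8]; exact hv₂C'
        exact hv₁ (hinter C (cj g C) hC hC'ord (Ne.symm hg) v₁ hv₁C h7)
      · rw [hP0 _ (hcjord u _ hC'ord) h2 _ hu2] at hPeq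
        exact hv₁ (hp v₁ hPeq.symm)
  -- `v₁ + v₂ ≠ 0`
  have hsum : v₁ + ρ g v₁ ≠ 0 := by
    intro h
    have h1 : ρ g v₁ = -v₁ := by
      rw [eq_neg_iff_add_eq_zero, add_comm]; exact h
    apply hv₂
    apply hinter C (cj g C) hC hC'ord (Ne.symm hg) _ _ hv₂C'
    rw [h1]; exact (fix ρ C).neg_mem hv₁C
  -- equal orders: the two stabilizers coincide
  have hcard := hEq (v₁ + ρ g v₁) v₁ hsum hv₁
  let f : {u : G // ρ u (v₁ + ρ g v₁) = v₁ + ρ g v₁} → {u : G // ρ u v₁ = v₁} :=
    fun u => ⟨u.1, hkey u.1 u.2⟩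
  have hf : Function.Injective f := by
    intro a b hab
    apply Subtype.ext
    have h0 : (f a).1 = (f b).1 := congrArg Subtype.val hab
    exact h0
  have hbij := hf.bijective_of_nat_card_le (le_of_eq hcard.symm)
  apply hv₂
  apply hinter C (cj g C) hC hC'ord (Ne.symm hg) _ _ hv₂C'
  intro c hc
  obtain ⟨⟨u, hu⟩, huc⟩ := hbij.2 ⟨c, hv₁C c hc⟩
  have huc' : u = c := congrArg Subtype.val huc
  rw [huc', map_add, hv₁C c hc] at hu
  exact add_left_cancel hu

end Cfsg.Agent.Lib.Helper47.HTAODD
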