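import Mathlib
import Cfsg.Agent.Lib.Helper59.HTStmt

/-!
# S3371 piece DIAG (helper47)

A linear automorphism of `F_q²` (`q` odd) commuting with `diag(1, -1)` is diagonal.
-/

set_option autoImplicit false

namespace Cfsg.Agent.Lib.Helper47.HTDIAG

open Cfsg.Agent.Lib.Helper59.HTStmt

theorem main : Diag := by
  intro q _ hq2 f hf
  have hqr : q.Prime := Fact.out
  have h2 : (2 : ZMod q) ≠ 0 := by
    intro h
    have h' : ((2 : ℕ) : ZMod q) = 0 := by exact_mod_cast h
    rw [ZMod.natCast_eq_zero_iff] at h'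
    exact hq2 ((Nat.prime_dvd_prime_iff_eq hqr Nat.prime_two).1 h')
  have hzero : ∀ x : ZMod q, x = -x → x = 0 := by
    intro x hx
    have h3 : 2 * x = 0 := by linear_combination hx
    exact (mul_eq_zero.1 h3).resolve_left h2
  have he0 := hf ![1, 0]
  have he1 := hf ![0, 1]
  have h0 : f ![1, 0] 1 = 0 := by
    have h3 := congrFun he0 1
    simp only [Matrix.cons_val_zero, Matrix.cons_val_one, neg_zero] at h3
    exact hzero _ h3
  have h1 : f ![0, 1] 0 = 0 := by
    have h3 := congrFun he1 0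
    simp only [Matrix.cons_val_zero, Matrix.cons_val_one] at h3
    have h4 : (![0, -1] : Fin 2 → ZMod q) = -![0, 1] := by
      ext i; fin_cases i <;> simp
    rw [h4, map_neg] at h3
    apply hzero
    have h5 : (-f ![0, 1]) 0 = -(f ![0, 1] 0) := rfl
    rw [h5] at h3
    linear_combination -h3
  have hv : ∀ v : Fin 2 → ZMod q, v = v 0 • ![(1 : ZMod q), 0] + v 1 • ![(0 : ZMod q), 1] := by
    intro v
    ext i
    fin_cases i <;> simp
  have hfv : ∀ v : Fin 2 → ZMod q, f v = ![f ![1, 0] 0 * v 0, f ![0, 1] 1 * v 1] := by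
    intro v
    conv_lhs => rw [hv v]
    rw [map_add, map_smul, map_smul]
    ext i
    fin_cases i
    · simp [h1, mul_comm]
    · simp [h0, mul_comm]
  have hc : f ![1, 0] 0 ≠ 0 := by
    intro hc
    have h3 := hfv ![1, 0]
    rw [hc] at h3
    have h4 : f ![1, 0] = 0 := by
      rw [h3]; ext i; fin_cases i <;> simp
    have h5 : (![1, 0] : Fin 2 → ZMod q) = 0 := f.injective (by rw [h4, map_zero])
    have h6 := congrFun h5 0
    simp at h6
  have hd : f ![0, 1] 1 ≠ 0 := by
    intro hd
    have h3 := hfv ![0, 1]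
    rw [hd] at h3
    have h4 : f ![0, 1] = 0 := by
      rw [h3]; ext i; fin_cases i <;> simp
    have h5 : (![0, 1] : Fin 2 → ZMod q) = 0 := f.injective (by rw [h4, map_zero])
    have h6 := congrFun h5 1
    simp at h6
  exact ⟨Units.mk0 _ hc, Units.mk0 _ hd, fun v => hfv v⟩

end Cfsg.Agent.Lib.Helper47.HTDIAG
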