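import Mathlib
import Cfsg.Agent.Lib.Helper59.HTStmt

/-!
# S3371 piece NT1 (helper47): `q ^ r + 1 = 2 ^ m`, `q` an odd prime, `r ≥ 1` ⟹ `r = 1`.
-/

set_option autoImplicit false

namespace Cfsg.Agent.Lib.Helper47.HTNT1

/-- For odd `q`, `q ^ (2 s + 1) + 1 = (q + 1) * S` with `S` odd. -/
theorem odd_cofactor (q : ℤ) (hq : Odd q) (s : ℕ) :
    ∃ S : ℤ, Odd S ∧ q ^ (2 * s + 1) + 1 = (q + 1) * S := by
  induction s with
  | zero => exact ⟨1, odd_one, by ring⟩
  | succ s ih =>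
    obtain ⟨S, hS, h⟩ := ih
    refine ⟨q ^ 2 * S - (q - 1), ?_, ?_⟩
    · exact Odd.sub_even (Odd.mul (Odd.pow hq) hS) (Odd.sub_odd hq odd_one)
    · linear_combination q ^ 2 * h

/-- An odd integer dividing a power of two is `±1`. -/
theorem odd_dvd_two_pow {S : ℤ} (hS : Odd S) {m : ℕ} (h : S ∣ (2 : ℤ) ^ m) : S = 1 ∨ S = -1 := by
  have h1 : S.natAbs ∣ 2 ^ m := by
    have h2 := Int.natAbs_dvd_natAbs.2 h
    rwa [Int.natAbs_pow] at h2
  obtain ⟨i, -, hi⟩ := (Nat.dvd_prime_pow Nat.prime_two).1 h1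
  have h3 : Odd S.natAbs := Int.natAbs_odd.2 hS
  have hi0 : i = 0 := by
    by_contra hne
    rw [hi] at h3
    exact (Nat.not_even_iff_odd.2 h3) (Nat.even_pow.2 ⟨even_two, hne⟩)
  rw [hi0, pow_zero] at hi
  rcases Int.natAbs_eq S with h4 | h4
  · left; rw [h4, hi]; rfl
  · right; rw [h4, hi]; rfl

theorem main : Cfsg.Agent.Lib.Helper59.HTStmt.NT1 := by
  intro q r m hq hq2 hr h
  have hq3 : 3 ≤ q := by
    have := hq.two_le
    omega
  have hqodd : Odd q := hq.odd_of_ne_two hq2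
  rcases Nat.even_or_odd r with hre | hro
  · -- `r` even: `q ^ r + 1 ≡ 2 mod 4`
    exfalso
    obtain ⟨s, rfl⟩ := hre
    have hq4 : q ^ 2 % 4 = 1 := by
      have h1 : q % 4 = 1 ∨ q % 4 = 3 := by
        obtain ⟨t, ht⟩ := hqodd
        omega
      rcases h1 with h1 | h1
      · rw [Nat.pow_mod, h1]
      · rw [Nat.pow_mod, h1]
    have h2 : q ^ (s + s) % 4 = 1 := by
      rw [← two_mul, pow_mul, Nat.pow_mod, hq4, one_pow]
      rfl
    have h3 : 2 ^ m % 4 = 2 := by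
      rw [← h]; omega
    have hm : m = 1 := by
      rcases Nat.lt_or_ge m 2 with hlt | hge
      · interval_cases m
        · norm_num at h3
        · rfl
      · exfalso
        obtain ⟨d, rfl⟩ := Nat.exists_eq_add_of_le hge
        rw [pow_add] at h3
        omega
    rw [hm] at h
    have h5 : 3 ≤ q ^ (s + s) := by
      calc 3 ≤ q := hq3
        _ = q ^ 1 := (pow_one q).symm
        _ ≤ q ^ (s + s) := Nat.pow_le_pow_right (by omega) (by omega)
    omega
  · -- `r` odd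
    obtain ⟨s, rfl⟩ := hro
    have hqZ : Odd (q : ℤ) := by exact_mod_cast hqodd
    obtain ⟨S, hS, hS2⟩ := odd_cofactor (q : ℤ) hqZ s
    have hZ : ((q : ℤ) ^ (2 * s + 1) + 1) = (2 : ℤ) ^ m := by exact_mod_cast h
    have hdvd : S ∣ (2 : ℤ) ^ m := ⟨(q : ℤ) + 1, by rw [← hZ, hS2]; ring⟩
    have hqpos : (0 : ℤ) < (q : ℤ) + 1 := by positivity
    rcases odd_dvd_two_pow hS hdvd with h1 | h1
    · rw [h1, mul_one] at hS2
      have h2 : (q : ℤ) ^ (2 * s + 1) = (q : ℤ) ^ 1 := by linarith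
      have h3 : q ^ (2 * s + 1) = q ^ 1 := by exact_mod_cast h2
      exact Nat.pow_right_injective hq.two_le h3
    · exfalso
      rw [h1] at hS2
      have h2 : (0 : ℤ) < (2 : ℤ) ^ m := by positivity
      rw [← hZ, hS2] at h2
      linarith

end Cfsg.Agent.Lib.Helper47.HTNT1
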