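import Mathlib
import Cfsg.Agent.Lib.Helper59.HTStmt
import Cfsg.Agent.Lib.Helper47.HTNT1

/-!
# S3371 piece NT2 (helper47): `q ^ r = 2 ^ k + 1`, `q` an odd prime, `r ≥ 1` ⟹ `r = 1` or
`(q, r) = (3, 2)`.
-/

set_option autoImplicit false

namespace Cfsg.Agent.Lib.Helper47.HTNT2

/-- For odd `q`, `q ^ (2 s + 1) - 1 = (q - 1) * S` with `S` odd. -/
theorem odd_cofactor' (q : ℤ) (hq : Odd q) (s : ℕ) :
    ∃ S : ℤ, Odd S ∧ q ^ (2 * s + 1) - 1 = (q - 1) * S := by
  induction s with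
  | zero => exact ⟨1, odd_one, by ring⟩
  | succ s ih =>
    obtain ⟨S, hS, h⟩ := ih
    refine ⟨q ^ 2 * S + (q + 1), ?_, ?_⟩
    · exact Odd.add_even (Odd.mul (Odd.pow hq) hS) (Odd.add_odd hq odd_one)
    · linear_combination q ^ 2 * h

theorem main : Cfsg.Agent.Lib.Helper59.HTStmt.NT2 := by
  intro q r k hq hq2 hr h
  have hq3 : 3 ≤ q := by
    have := hq.two_le
    omega
  have hqodd : Odd q := hq.odd_of_ne_two hq2
  rcases Nat.even_or_odd r with hre | hro
  · -- `r = 2 s`: `(q ^ s - 1) (q ^ s + 1) = 2 ^ k`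
    right
    obtain ⟨s, rfl⟩ := hre
    have hs : 1 ≤ s := by omega
    have ht3 : 3 ≤ q ^ s := by
      calc 3 ≤ q := hq3
        _ = q ^ 1 := (pow_one q).symm
        _ ≤ q ^ s := Nat.pow_le_pow_right (by omega) hs
    have hprod : (q ^ s - 1) * (q ^ s + 1) = 2 ^ k := by
      have h1 : q ^ (s + s) = q ^ s * q ^ s := pow_add q s s
      have h2 : 1 ≤ q ^ s := by omega
      obtain ⟨t, ht⟩ : ∃ t, q ^ s = t + 1 := ⟨q ^ s - 1, by omega⟩
      rw [h1, ht] at h
      rw [ht, Nat.add_sub_cancel]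
      nlinarith [h]
    obtain ⟨i, -, hi⟩ := (Nat.dvd_prime_pow Nat.prime_two).1 (Dvd.intro _ hprod)
    obtain ⟨j, -, hj⟩ := (Nat.dvd_prime_pow Nat.prime_two).1 (Dvd.intro_left _ hprod)
    have hij : 2 ^ j = 2 ^ i + 2 := by omega
    have hi1 : i = 1 := by
      rcases Nat.lt_or_ge i 2 with hlt | hge
      · interval_cases i
        · omega
        · rfl
      · exfalso
        obtain ⟨d, rfl⟩ := Nat.exists_eq_add_of_le hge
        have h4 : 2 ^ (2 + d) % 4 = 0 := by rw [pow_add]; omega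
        have h5 : 2 ^ j % 4 = 2 := by omega
        rcases Nat.lt_or_ge j 2 with hjlt | hjge
        · interval_cases j
          · omega
          · have h6 : 0 < 2 ^ (2 + d) := by positivity
            omega
        · obtain ⟨d', rfl⟩ := Nat.exists_eq_add_of_le hjge
          rw [pow_add] at h5
          omega
    rw [hi1] at hi
    have hqs : q ^ s = 3 := by omega
    have hq3' : q = 3 := by
      have h1 : q ∣ 3 := by
        rw [← hqs]
        exact dvd_pow_self q (by omega)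
      exact (Nat.prime_dvd_prime_iff_eq hq Nat.prime_three).1 h1
    refine ⟨hq3', ?_⟩
    rw [hq3'] at hqs
    have h2 : (3 : ℕ) ^ s = 3 ^ 1 := by rw [hqs, pow_one]
    have h3 : s = 1 := Nat.pow_right_injective (by norm_num : 2 ≤ 3) h2
    omega
  · -- `r` odd
    left
    obtain ⟨s, rfl⟩ := hro
    have hqZ : Odd (q : ℤ) := by exact_mod_cast hqodd
    obtain ⟨S, hS, hS2⟩ := odd_cofactor' (q : ℤ) hqZ s
    have hZ : ((q : ℤ) ^ (2 * s + 1) - 1) = (2 : ℤ) ^ k := by
      have h1 : ((q : ℤ) ^ (2 * s + 1)) = (2 : ℤ) ^ k + 1 := by exact_mod_cast h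
      linarith
    have hdvd : S ∣ (2 : ℤ) ^ k := ⟨(q : ℤ) - 1, by rw [← hZ, hS2]; ring⟩
    have hqpos : (0 : ℤ) < (q : ℤ) - 1 := by
      have : (3 : ℤ) ≤ (q : ℤ) := by exact_mod_cast hq3
      linarith
    rcases Cfsg.Agent.Lib.Helper47.HTNT1.odd_dvd_two_pow hS hdvd with h1 | h1
    · rw [h1, mul_one] at hS2
      have h2 : (q : ℤ) ^ (2 * s + 1) = (q : ℤ) ^ 1 := by linarith
      have h3 : q ^ (2 * s + 1) = q ^ 1 := by exact_mod_cast h2
      exact Nat.pow_right_injective hq.two_le h3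
    · exfalso
      rw [h1] at hS2
      have h2 : (0 : ℤ) < (2 : ℤ) ^ k := by positivity
      rw [← hZ, hS2] at h2
      linarith

end Cfsg.Agent.Lib.Helper47.HTNT2
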