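import Mathlib
import Cfsg.Agent.Lib.Helper59.HTStmt

/-!
# S3371 piece ORB (helper47)

Orbit-stabilizer: equal orbit sizes give equal stabilizer orders.
-/

set_option autoImplicit false

namespace Cfsg.Agent.Lib.Helper47.HTORB

open Cfsg.Agent.Lib.Helper59.HTStmt

universe u v

theorem main : Orb.{u, v} := by
  intro q _ V _ _ _ G _ _ ρ hH v w hv hw
  let _ : MulAction G V := MulAction.compHom V ρ
  have hsm : ∀ (g : G) (x : V), g • x = ρ g x := fun _ _ => rfl
  have horb : ∀ x : V, {u : V | ∃ g : G, ρ g x = u} = MulAction.orbit G x := by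
    intro x
    ext u
    rfl
  have hstab : ∀ x : V, Nat.card {g : G // ρ g x = x} = Nat.card (MulAction.stabilizer G x) :=
    fun x => Nat.card_congr (Equiv.subtypeEquivRight (fun g => Iff.rfl))
  have hos : ∀ x : V, Nat.card {u : V | ∃ g : G, ρ g x = u} * Nat.card {g : G // ρ g x = x} =
      Nat.card G := by
    intro x
    rw [horb x, hstab x, ← Nat.card_prod]
    exact Nat.card_congr (MulAction.orbitProdStabilizerEquivGroup G x)
  have h1 := hos v
  have h2 := hos w
  rw [hH v w hv hw] at h1
  have hpos : 0 < Nat.card {u : V | ∃ g : G, ρ g w = u} := by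
    have : Nonempty {u : V | ∃ g : G, ρ g w = u} := ⟨⟨w, 1, by rw [map_one]; rfl⟩⟩
    exact Nat.card_pos
  exact Nat.eq_of_mul_eq_mul_left hpos (h1.trans h2.symm)

end Cfsg.Agent.Lib.Helper47.HTORB
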