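import Mathlib
import Cfsg.Agent.Lib.Helper59.HTStmt

/-!
# S3371 piece PEQ (helper47)

A `q`-group acting faithfully and half-transitively on an `F_q`-space is trivial.
-/

set_option autoImplicit false

namespace Cfsg.Agent.Lib.Helper47.HTPEQ

open Cfsg.Agent.Lib.Helper59.HTStmt

universe u v

theorem main : PEq.{u, v} := by
  intro q _ V _ _ _ _ G _ _ hG ρ hρ hH g
  have hqr : q.Prime := Fact.out
  let _ : MulAction G V := MulAction.compHom V ρ
  have hsm : ∀ (g : G) (w : V), g • w = ρ g w := fun _ _ => rfl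
  obtain ⟨v0, hv0⟩ := exists_ne (0 : V)
  have hdvd : q ∣ Nat.card V := by
    have h0 : q • v0 = 0 := by
      rw [← Nat.cast_smul_eq_nsmul (ZMod q), ZMod.natCast_self, zero_smul]
    have h1 : addOrderOf v0 = q := addOrderOf_eq_prime h0 hv0
    rw [← h1]; exact addOrderOf_dvd_natCard v0
  have h0 : (0 : V) ∈ MulAction.fixedPoints G V := by
    intro g; rw [hsm, map_zero]
  obtain ⟨b, hb, hb0⟩ := hG.exists_fixed_point_of_prime_dvd_card_of_fixed_point V hdvd h0
  have hb' : ∀ g : G, ρ g b = b := fun g => hb g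
  have horb : ∀ w : V, w ≠ 0 → ∀ g : G, ρ g w = w := by
    intro w hw g
    have h1 := hH w b hw (Ne.symm hb0)
    have h2 : {u : V | ∃ g : G, ρ g b = u} = {b} := by
      ext u
      constructor
      · rintro ⟨g, rfl⟩
        exact hb' g
      · intro hu
        rw [Set.mem_singleton_iff] at hu
        exact ⟨1, by rw [hu, map_one]; rfl⟩
    rw [h2, Nat.card_coe_set_eq, Nat.card_coe_set_eq, Set.ncard_singleton, Set.ncard_eq_one] at h1
    obtain ⟨a, ha⟩ := h1
    have hw1 : w ∈ {u : V | ∃ g : G, ρ g w = u} := ⟨1, by rw [map_one]; rfl⟩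
    have hw2 : ρ g w ∈ {u : V | ∃ g : G, ρ g w = u} := ⟨g, rfl⟩
    rw [ha, Set.mem_singleton_iff] at hw1 hw2
    rw [hw2, hw1]
  apply hρ
  rw [map_one]
  ext w
  by_cases hw : w = 0
  · rw [hw, map_zero, map_zero]
  · exact horb w hw g

end Cfsg.Agent.Lib.Helper47.HTPEQ
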