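import Mathlib
import Cfsg.Agent.Lib.Helper59.HTStmt
import Cfsg.Agent.Lib.Helper47.Imprim

/-!
# S3371 piece ZF (helper47)

`p ≠ q`: in a `p`-group of linear maps of an `F_q`-space all of whose stabilizers of non-zero
vectors have the same order, a non-trivial central element fixes no non-zero vector.
-/

set_option autoImplicit false

namespace Cfsg.Agent.Lib.Helper47.HTZF

open Cfsg.Agent.Lib.Helper59.HTStmt
open Cfsg.Agent.Lib.Helper47.Imprim

universe u v

/-- the stabilizer of a vector, as a subgroup -/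
def stab {k : Type*} [Field k] {V : Type*} [AddCommGroup V] [Module k V] {G : Type*} [Group G]
    (ρ : G →* (V ≃ₗ[k] V)) (v : V) : Subgroup G where
  carrier := {g | ρ g v = v}
  mul_mem' := by
    intro a b ha hb
    simp only [Set.mem_ofPred_eq] at ha hb ⊢
    calc ρ (a * b) v = ρ a (ρ b v) := by rw [map_mul]; rfl
      _ = v := by rw [hb, ha]
  one_mem' := by simp
  inv_mem' := by
    intro a ha
    simp only [Set.mem_ofPred_eq] at ha ⊢
    have : ρ a⁻¹ * ρ a = 1 := by rw [← map_mul, inv_mul_cancel, map_one]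
    calc ρ a⁻¹ v = ρ a⁻¹ (ρ a v) := by rw [ha]
      _ = (ρ a⁻¹ * ρ a) v := rfl
      _ = v := by rw [this]; rfl

theorem mem_stab {k : Type*} [Field k] {V : Type*} [AddCommGroup V] [Module k V] {G : Type*}
    [Group G] (ρ : G →* (V ≃ₗ[k] V)) (v : V) (g : G) : g ∈ stab ρ v ↔ ρ g v = v := Iff.rfl

theorem main : ZF.{u, v} := by
  intro q _ V _ _ _ G _ _ p _ hG hpq ρ hρ hEq z hz hz1 v hv hzv
  classical
  have : Fintype G := Fintype.ofFinite G
  have hpr : p.Prime := Fact.out
  have hqr : q.Prime := Fact.out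
  set C := Subgroup.zpowers z with hC
  have hzC : z ∈ C := Subgroup.mem_zpowers z
  -- multiplication by `|C|` is injective on `V`
  have hn : ∀ x : V, (Nat.card C) • x = 0 → x = 0 := by
    intro x hx
    by_contra hx0
    have h1 : ((Nat.card C : ℕ) : ZMod q) • x = 0 := by rw [Nat.cast_smul_eq_nsmul]; exact hx
    rcases smul_eq_zero.1 h1 with h | h
    · rw [ZMod.natCast_eq_zero_iff] at h
      obtain ⟨m, hm⟩ := IsPGroup.iff_card.1 hG
      have h2 : q ∣ p ^ m := by
        rw [← hm]; exact h.trans (Subgroup.card_subgroup_dvd_card C)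
      have h3 := hqr.dvd_of_dvd_pow h2
      exact hpq ((Nat.prime_dvd_prime_iff_eq hqr hpr).1 h3).symm
    · exact hx0 h
  have hcomm : ∀ (g : G) (c : G), c ∈ C → g * c = c * g := by
    intro g c hc
    obtain ⟨k, rfl⟩ := Subgroup.mem_zpowers_iff.1 hc
    have h1 : z ^ k ∈ Subgroup.center G := Subgroup.zpow_mem _ hz k
    exact (Subgroup.mem_center_iff.1 h1 g)
  have hvfix : v ∈ fix ρ C := by
    intro c hc
    have h1 : C ≤ stab ρ v := (Subgroup.zpowers_le).2 ((mem_stab ρ v z).2 hzv)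
    exact (mem_stab ρ v c).1 (h1 hc)
  -- a vector moved by `z`
  obtain ⟨w, hw⟩ : ∃ w : V, ρ z w ≠ w := by
    by_contra hcon
    push Not at hcon
    apply hz1
    apply hρ
    rw [map_one]
    ext x
    exact hcon x
  have hNfix : ∀ x, avg ρ C x ∈ fix ρ C := avg_mem_fix ρ C
  have hNw : ρ z (avg ρ C w) = avg ρ C w := hNfix w z hzC
  have hNof : ∀ x ∈ fix ρ C, avg ρ C x = (Nat.card C) • x :=
    fun x hx => avg_of_mem_fix ρ C hx
  set u := (Nat.card C) • w - avg ρ C w with hu
  have hNu : avg ρ C u = 0 := by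
    rw [hu, map_sub, map_nsmul, hNof (avg ρ C w) (hNfix w), sub_self]
  have hzu : ρ z u ≠ u := by
    intro h
    apply hw
    have h2 : ρ z u = (Nat.card C) • ρ z w - avg ρ C w := by
      rw [hu, map_sub, map_nsmul, hNw]
    rw [h2, hu] at h
    have h3 : (Nat.card C) • ρ z w = (Nat.card C) • w := sub_left_injective h
    have h1 : (Nat.card C) • (ρ z w - w) = 0 := by rw [smul_sub, h3, sub_self]
    exact sub_eq_zero.1 (hn _ h1)
  have hu0 : u ≠ 0 := by
    intro h
    apply hzu
    rw [h, map_zero]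
  have hzero : ∀ x ∈ fix ρ C, avg ρ C x = 0 → x = 0 := by
    intro x hx hNx
    rw [hNof x hx] at hNx
    exact hn x hNx
  have hfixinv : ∀ (g : G) (x : V), x ∈ fix ρ C → ρ g x ∈ fix ρ C := by
    intro g x hx c hc
    calc ρ c (ρ g x) = ρ (c * g) x := by rw [map_mul]; rfl
      _ = ρ (g * c) x := by rw [hcomm g c hc]
      _ = ρ g (ρ c x) := by rw [map_mul]; rfl
      _ = ρ g x := by rw [hx c hc]
  have hNcomm : ∀ (g : G) (x : V), avg ρ C (ρ g x) = ρ g (avg ρ C x) := by
    intro g x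
    rw [avg_apply, avg_apply, map_sum]
    refine Finset.sum_congr rfl (fun c hc => ?_)
    have hc' : c ∈ C := by simpa using hc
    calc ρ c (ρ g x) = ρ (c * g) x := by rw [map_mul]; rfl
      _ = ρ (g * c) x := by rw [hcomm g c hc']
      _ = ρ g (ρ c x) := by rw [map_mul]; rfl
  have hkey : ∀ g : G, ρ g (v + u) = v + u → ρ g v = v ∧ ρ g u = u := by
    intro g hg
    rw [map_add] at hg
    have hd : ρ g v - v = u - ρ g u := by
      rw [sub_eq_sub_iff_add_eq_add, hg, add_comm]
    have h1 : ρ g v - v ∈ fix ρ C := (fix ρ C).sub_mem (hfixinv g v hvfix) hvfix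
    have h2 : avg ρ C (ρ g v - v) = 0 := by
      rw [hd, map_sub, hNcomm, hNu, map_zero, sub_self]
    have h3 := hzero _ h1 h2
    refine ⟨sub_eq_zero.1 h3, ?_⟩
    rw [h3] at hd
    exact (sub_eq_zero.1 hd.symm).symm
  have hsum : v + u ≠ 0 := by
    intro h
    have h1 : v = -u := eq_neg_of_add_eq_zero_left h
    apply hv
    apply hzero v hvfix
    rw [h1, map_neg, hNu, neg_zero]
  have hle1 : stab ρ (v + u) ≤ stab ρ v := fun g hg => (hkey g hg).1
  have hle2 : stab ρ (v + u) ≤ stab ρ u := fun g hg => (hkey g hg).2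
  have hcardS : ∀ x : V, Nat.card (stab ρ x) = Nat.card {g : G // ρ g x = x} :=
    fun x => Nat.card_congr (Equiv.subtypeEquivRight (fun g => Iff.rfl))
  have hc1 : Nat.card (stab ρ (v + u)) = Nat.card (stab ρ v) := by
    rw [hcardS, hcardS]; exact hEq (v + u) v hsum hv
  have hc2 : Nat.card (stab ρ (v + u)) = Nat.card (stab ρ u) := by
    rw [hcardS, hcardS]; exact hEq (v + u) u hsum hu0
  have he1 : stab ρ (v + u) = stab ρ v := Subgroup.eq_of_le_of_card_ge hle1 (le_of_eq hc1.symm)
  have he2 : stab ρ (v + u) = stab ρ u := Subgroup.eq_of_le_of_card_ge hle2 (le_of_eq hc2.symm)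
  have hzS : z ∈ stab ρ u := by
    rw [← he2, he1]; exact hzv
  exact hzu hzS

end Cfsg.Agent.Lib.Helper47.HTZF
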