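import Mathlib
import Cfsg.Agent.Lib.Helper94.OMiPStmt
import Cfsg.Agent.Lib.Helper12.OMiPELTAM

/-!
# S5991 / MPELTA (helper47): the Siegel element of rank `d - 1` (`d` odd), from helper12's
landed `OMiPELTAM` (`ρ = d - 1`).
-/

set_option autoImplicit false

universe u

namespace Cfsg.Agent.Lib.Helper47.MPELTA

open Cfsg.Agent.Lib.Helper94.OMiPStmt

theorem main : MPEltA.{u} := by
  intro F _ _ p _ _ hodd d hd hdo a b hab
  have hρe : Even (d - 1) := by
    obtain ⟨k, hk⟩ := hdo
    exact ⟨k, by omega⟩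
  exact Cfsg.Agent.Lib.Helper12.OMiPELTAM.main F p hodd d (d - 1) a b hab hρe (by omega) le_rfl

end Cfsg.Agent.Lib.Helper47.MPELTA
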