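import Mathlib
import Cfsg.Agent.Lib.Helper94.OMiPStmt
import Cfsg.Agent.Lib.Helper12.OMiPELTBM

/-!
# S5991 / MPELTB (helper47): the element of Jordan type `J_3 ^ 2 + J_2 ^ (d - 3)` (`d` odd), from
helper12's landed `OMiPELTBM` (the two statement files use the same definitions).
-/

set_option autoImplicit false

universe u

namespace Cfsg.Agent.Lib.Helper47.MPELTB

open Cfsg.Agent.Lib.Helper94.OMiPStmt

theorem main : MPEltB.{u} := by
  intro F _ _ p _ _ hodd d hd hdo a b hab
  exact Cfsg.Agent.Lib.Helper12.OMiPELTBM.main F p hodd d hd hdo a b hab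

end Cfsg.Agent.Lib.Helper47.MPELTB
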