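import Mathlib
import Cfsg.Prelude.Def_Blocks
import Cfsg.Agent.Lib.Helper74.McKayDefs
import Cfsg.Agent.Lib.CT.Ops

/-!
# Two counting pieces for the count of characters of degree prime to `p`

* `card_normalizer_eq_sum`: `|N_G(P)|` as the sum over the `N_G(P)`-conjugates `θ` of a fixed
  irreducible character `θ₀` of `C_G(P)` of the orders of the stabilizers of `θ`.
* `card_normalizer_subgroupOf`: the normalizer of `P` inside `N_G(P)` is everything.
-/

set_option autoImplicit false

namespace Cfsg.Agent.Lib.Helper47.McKayF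

open Cfsg Cfsg.Agent.Lib.Helper74.McKayDefs

universe u
variable {G : Type u} [Group G]

/-- Conjugation by an element of the normalizer of `P`, as an automorphism of the centralizer. -/
def cj (P : Subgroup G) (n : G) (hn : n ∈ Subgroup.normalizer (P : Set G)) :
    ↥(Subgroup.centralizer (P : Set G)) ≃* ↥(Subgroup.centralizer (P : Set G)) where
  toFun c := ⟨n * c * n⁻¹, conj_mem_centralizer P hn c.2⟩
  invFun c := ⟨n⁻¹ * c * n, by
    have := conj_mem_centralizer P (Subgroup.inv_mem _ hn) c.2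
    simpa using this⟩
  left_inv c := by
    apply Subtype.ext
    show n⁻¹ * (n * (c : G) * n⁻¹) * n = c
    group
  right_inv c := by
    apply Subtype.ext
    show n * (n⁻¹ * (c : G) * n) * n⁻¹ = c
    group
  map_mul' a b := by
    apply Subtype.ext
    show n * ((a : G) * (b : G)) * n⁻¹ = (n * (a : G) * n⁻¹) * (n * (b : G) * n⁻¹)
    group

theorem cj_coe (P : Subgroup G) (n : G) (hn : n ∈ Subgroup.normalizer (P : Set G))
    (c : ↥(Subgroup.centralizer (P : Set G))) : ((cj P n hn c : ↥(Subgroup.centralizer (P : Set G))) : G) = n * c * n⁻¹ := rfl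

open Classical in
/-- (F) `|N_G(P)|` is the sum, over the `N_G(P)`-conjugates `θ` of `θ₀`, of `|stab P θ|`. -/
theorem card_normalizer_eq_sum [Finite G] (P : Subgroup G)
    [Fintype (IrrCharacter ↥(Subgroup.centralizer (P : Set G)))]
    (θ₀ : IrrCharacter ↥(Subgroup.centralizer (P : Set G))) :
    Nat.card ↥(Subgroup.normalizer (P : Set G)) =
      ∑ θ : IrrCharacter ↥(Subgroup.centralizer (P : Set G)),
        if (∃ n ∈ Subgroup.normalizer (P : Set G),
            ∀ c c' : ↥(Subgroup.centralizer (P : Set G)), (c' : G) = n * c * n⁻¹ →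
              (θ : ↥(Subgroup.centralizer (P : Set G)) → ℂ) c =
                (θ₀ : ↥(Subgroup.centralizer (P : Set G)) → ℂ) c')
        then Nat.card ↥(stab P (θ : ↥(Subgroup.centralizer (P : Set G)) → ℂ)) else 0 := by
  let F : ↥(Subgroup.normalizer (P : Set G)) → IrrCharacter ↥(Subgroup.centralizer (P : Set G)) :=
    fun n => ⟨fun c => (θ₀ : ↥(Subgroup.centralizer (P : Set G)) → ℂ) (cj P n n.2 c),
      Cfsg.Agent.Lib.CT.Ops.isIrrCharacter_comp_mulEquiv (cj P n n.2) θ₀.2⟩
  have hF : ∀ (n : ↥(Subgroup.normalizer (P : Set G)))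
      (θ : IrrCharacter ↥(Subgroup.centralizer (P : Set G))),
      F n = θ ↔ ∀ c c' : ↥(Subgroup.centralizer (P : Set G)),
        (c' : G) = (n : G) * c * (n : G)⁻¹ →
        (θ : ↥(Subgroup.centralizer (P : Set G)) → ℂ) c =
          (θ₀ : ↥(Subgroup.centralizer (P : Set G)) → ℂ) c' := by
    intro n θ
    constructor
    · rintro rfl c c' h
      have : c' = cj P n n.2 c := Subtype.ext h
      rw [this]
    · intro h
      apply Subtype.ext
      funext c
      exact (h c (cj P n n.2 c) rfl).symm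
  have h1 : Nat.card ↥(Subgroup.normalizer (P : Set G)) =
      ∑ θ : IrrCharacter ↥(Subgroup.centralizer (P : Set G)), Nat.card {n // F n = θ} := by
    rw [Nat.card_congr (Equiv.sigmaFiberEquiv F).symm, Nat.card_sigma]
  rw [h1]
  refine Finset.sum_congr rfl fun θ _ => ?_
  split_ifs with hc
  · obtain ⟨n₀, hn₀, h₀⟩ := hc
    refine Nat.card_congr ⟨fun n => ⟨n₀⁻¹ * (n.1 : G), ?_⟩,
      fun g => ⟨⟨n₀ * (g : G), ?_⟩, ?_⟩, ?_, ?_⟩
    · refine ⟨Subgroup.mul_mem _ (Subgroup.inv_mem _ hn₀) n.1.2, fun c c' h => ?_⟩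
      have e1 := (hF n.1 θ).1 n.2 c (cj P n.1 n.1.2 c) rfl
      have e2 := h₀ c' (cj P n.1 n.1.2 c) (by rw [cj_coe, h]; group)
      rw [e1, e2]
    · exact Subgroup.mul_mem _ hn₀ g.2.1
    · refine (hF _ θ).2 fun c c' h => ?_
      have e1 := g.2.2 c ⟨(g : G) * c * (g : G)⁻¹, conj_mem_centralizer P g.2.1 c.2⟩ rfl
      have e2 := h₀ ⟨(g : G) * c * (g : G)⁻¹, conj_mem_centralizer P g.2.1 c.2⟩ c'
        (by rw [h]; group)
      rw [← e1, e2]
    · intro n
      apply Subtype.ext
      apply Subtype.ext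
      show n₀ * (n₀⁻¹ * (n.1 : G)) = n.1
      group
    · intro g
      apply Subtype.ext
      show n₀⁻¹ * (n₀ * (g : G)) = g
      group
  · exact Nat.card_eq_zero.2 (Or.inl ⟨fun n => hc ⟨n.1, n.1.2, (hF n.1 θ).1 n.2⟩⟩)

/-- (G2) Inside `N_G(P)`, the normalizer of `P` is everything. -/
theorem card_normalizer_subgroupOf [Finite G] (P : Subgroup G) :
    Nat.card ↥(Subgroup.normalizer ((P.subgroupOf (Subgroup.normalizer (P : Set G)) :
      Subgroup ↥(Subgroup.normalizer (P : Set G))) : Set ↥(Subgroup.normalizer (P : Set G)))) =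
      Nat.card ↥(Subgroup.normalizer (P : Set G)) := by
  have h : (P.subgroupOf (Subgroup.normalizer (P : Set G))).Normal :=
    Subgroup.normal_in_normalizer
  rw [Subgroup.normalizer_eq_top_iff.2 h]
  exact Subgroup.card_top

end Cfsg.Agent.Lib.Helper47.McKayF
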