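import Mathlib
import Cfsg.Prelude.Def_Blocks
import Cfsg.Agent.Lib.Helper74.McKayDefs
import Cfsg.Agent.Lib.Helper77.BPTransport

/-!
# The local sum of `P` computed inside `N_G(P)`

`locSum p (P.subgroupOf N) = locSum p P` for `N = N_G(P)`: the centralizer of `P` in `N` is the
centralizer of `P` in `G`, and the stabilizers of the irreducible characters correspond.
-/

set_option autoImplicit false

namespace Cfsg.Agent.Lib.Helper47.McKayG

open Cfsg Cfsg.Agent.Lib.Helper74.McKayDefs Cfsg.Agent.Lib.Helper77.BPTransport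

universe u
variable {G : Type u} [Group G]

theorem mem_centralizer_subgroupOf (P : Subgroup G)
    (c : ↥(Subgroup.normalizer (P : Set G))) :
    c ∈ Subgroup.centralizer ((P.subgroupOf (Subgroup.normalizer (P : Set G)) :
        Subgroup ↥(Subgroup.normalizer (P : Set G))) : Set ↥(Subgroup.normalizer (P : Set G))) ↔
      (c : G) ∈ Subgroup.centralizer (P : Set G) := by
  rw [Subgroup.mem_centralizer_iff, Subgroup.mem_centralizer_iff]
  constructor
  · intro h y hy
    have hyN : y ∈ Subgroup.normalizer (P : Set G) := Subgroup.le_normalizer hy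
    have h1 := h ⟨y, hyN⟩ (Subgroup.mem_subgroupOf.2 hy)
    exact congrArg Subtype.val h1
  · intro h x hx
    apply Subtype.ext
    exact h x (Subgroup.mem_subgroupOf.1 hx)

theorem centralizer_subgroupOf_eq (P : Subgroup G) :
    Subgroup.centralizer ((P.subgroupOf (Subgroup.normalizer (P : Set G)) :
        Subgroup ↥(Subgroup.normalizer (P : Set G))) : Set ↥(Subgroup.normalizer (P : Set G))) =
      (Subgroup.centralizer (P : Set G)).subgroupOf (Subgroup.normalizer (P : Set G)) := by
  ext c
  rw [Subgroup.mem_subgroupOf]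
  exact mem_centralizer_subgroupOf P c

/-- The centralizer of `P` inside `N_G(P)` is the centralizer of `P`. -/
def phi (P : Subgroup G) :
    ↥(Subgroup.centralizer ((P.subgroupOf (Subgroup.normalizer (P : Set G)) :
        Subgroup ↥(Subgroup.normalizer (P : Set G))) : Set ↥(Subgroup.normalizer (P : Set G)))) ≃*
      ↥(Subgroup.centralizer (P : Set G)) where
  toFun c := ⟨((c : ↥(Subgroup.normalizer (P : Set G))) : G),
    (mem_centralizer_subgroupOf P c.1).1 c.2⟩
  invFun d := ⟨⟨(d : G), Subgroup.centralizer_le_normalizer _ d.2⟩,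
    (mem_centralizer_subgroupOf P _).2 d.2⟩
  left_inv _ := rfl
  right_inv _ := rfl
  map_mul' _ _ := rfl

theorem phi_coe (P : Subgroup G)
    (c : ↥(Subgroup.centralizer ((P.subgroupOf (Subgroup.normalizer (P : Set G)) :
        Subgroup ↥(Subgroup.normalizer (P : Set G))) : Set ↥(Subgroup.normalizer (P : Set G))))) :
    ((phi P c : ↥(Subgroup.centralizer (P : Set G))) : G) =
      ((c : ↥(Subgroup.normalizer (P : Set G))) : G) := rfl

theorem phi_symm_coe (P : Subgroup G) (d : ↥(Subgroup.centralizer (P : Set G))) :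
    ((((phi P).symm d : ↥(Subgroup.centralizer ((P.subgroupOf (Subgroup.normalizer (P : Set G)) :
        Subgroup ↥(Subgroup.normalizer (P : Set G))) : Set ↥(Subgroup.normalizer (P : Set G))))) :
        ↥(Subgroup.normalizer (P : Set G))) : G) = (d : G) := rfl

theorem stab_subgroupOf (P : Subgroup G) (θ : ↥(Subgroup.centralizer (P : Set G)) → ℂ) :
    stab (P.subgroupOf (Subgroup.normalizer (P : Set G))) (fun c => θ (phi P c)) =
      (stab P θ).subgroupOf (Subgroup.normalizer (P : Set G)) := by
  ext g
  rw [Subgroup.mem_subgroupOf, mem_stab, mem_stab]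
  constructor
  · rintro ⟨_, h⟩
    refine ⟨g.2, fun d d' hd => ?_⟩
    have h1 := h ((phi P).symm d) ((phi P).symm d') (by
      apply Subtype.ext
      rw [phi_symm_coe]
      rw [hd]
      rfl)
    simpa using h1
  · rintro ⟨_, h⟩
    refine ⟨?_, fun c c' hc => ?_⟩
    · have hn : (P.subgroupOf (Subgroup.normalizer (P : Set G))).Normal :=
        Subgroup.normal_in_normalizer
      rw [Subgroup.normalizer_eq_top_iff.2 hn]
      exact Subgroup.mem_top g
    · exact h (phi P c) (phi P c') (congrArg Subtype.val hc)

/-- (G1) The local sum of `P` computed inside `N_G(P)` is the local sum of `P`. -/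
theorem locSum_normalizer [Finite G] (p : ℕ) (P : Subgroup G) :
    locSum p (P.subgroupOf (Subgroup.normalizer (P : Set G))) = locSum p P := by
  unfold locSum
  symm
  refine finsum_mem_eq_of_bijOn (pull (phi P)) ⟨?_, (pull_injective (phi P)).injOn, ?_⟩ ?_
  · intro θ hθ x hx
    rw [pull_apply, pull_apply]
    have h1 := hθ (phi P x) (Subgroup.mem_subgroupOf.1 hx)
    rw [h1]
    rfl
  · intro θ' hθ'
    refine ⟨pull (phi P).symm θ', ?_, pull_pull_symm (phi P) θ'⟩
    intro y hy
    rw [pull_apply, pull_apply]
    have h1 := hθ' ((phi P).symm y) (Subgroup.mem_subgroupOf.2 hy)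
    rw [h1]
    rfl
  · intro θ _
    have hst : stab (P.subgroupOf (Subgroup.normalizer (P : Set G)))
        ((pull (phi P) θ : IrrCharacter _) : _ → ℂ) =
        (stab P (θ : ↥(Subgroup.centralizer (P : Set G)) → ℂ)).subgroupOf
          (Subgroup.normalizer (P : Set G)) :=
      stab_subgroupOf P (θ : ↥(Subgroup.centralizer (P : Set G)) → ℂ)
    have hle := stab_le_normalizer P (θ : ↥(Subgroup.centralizer (P : Set G)) → ℂ)
    unfold wt
    rw [hst, centralizer_subgroupOf_eq, Subgroup.relIndex_subgroupOf hle,
      Nat.card_congr (Subgroup.subgroupOfEquivOfLe hle).toEquiv]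

end Cfsg.Agent.Lib.Helper47.McKayG
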