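import Mathlib
import Cfsg.Agent.Lib.Helper42.ReeAutStmt

/-!
# S2127: elementary facts on `NU` (helper47)

`NU U g` (`g` conjugates `U` into `U`) defines a subgroup of a finite group, the normalizer.
Shared by the pieces GLOB, ALIGN, GEOB.
-/

set_option autoImplicit false

namespace Cfsg.Agent.Lib.Helper47.ReeAutNU

open Cfsg.Agent.Lib.Helper42.ReeAutStmt

universe u

variable {G : Type u} [Group G] (U : Subgroup G)

theorem nu_one : NU U 1 := by
  intro u hu
  simpa using hu

theorem nu_mul {a b : G} (ha : NU U a) (hb : NU U b) : NU U (a * b) := by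
  intro u hu
  have h := ha _ (hb u hu)
  have e : a * b * u * (a * b)⁻¹ = a * (b * u * b⁻¹) * a⁻¹ := by group
  rw [e]
  exact h

theorem nu_pow {a : G} (ha : NU U a) (k : ℕ) : NU U (a ^ k) := by
  induction k with
  | zero =>
    rw [pow_zero]
    exact nu_one U
  | succ k ih =>
    rw [pow_succ]
    exact nu_mul U ih ha

theorem nu_inv [Finite G] {a : G} (ha : NU U a) : NU U a⁻¹ := by
  have hpos : 0 < orderOf a := orderOf_pos a
  have e : a⁻¹ = a ^ (orderOf a - 1) := by
    apply inv_eq_of_mul_eq_one_right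
    rw [← pow_succ', Nat.sub_add_cancel hpos, pow_orderOf_eq_one]
  rw [e]
  exact nu_pow U ha _

theorem nu_of_mem {a : G} (ha : a ∈ U) : NU U a := fun _ hu =>
  U.mul_mem (U.mul_mem ha hu) (U.inv_mem ha)

/-- the subgroup of the elements normalizing `U` -/
def nuSub [Finite G] : Subgroup G where
  carrier := {g | NU U g}
  mul_mem' := fun ha hb => nu_mul U ha hb
  one_mem' := nu_one U
  inv_mem' := fun ha => nu_inv U ha

theorem mem_nuSub [Finite G] {g : G} : g ∈ nuSub U ↔ NU U g := Iff.rfl

theorem nu_iff_mem_normalizer [Finite G] {g : G} :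
    NU U g ↔ g ∈ Subgroup.normalizer (U : Set G) := by
  rw [Subgroup.mem_normalizer_iff]
  constructor
  · intro hg h
    constructor
    · exact hg h
    · intro hh
      have h1 := nu_inv U hg _ hh
      have e : g⁻¹ * (g * h * g⁻¹) * g⁻¹⁻¹ = h := by group
      rw [e] at h1
      exact h1
  · intro hg u hu
    exact (hg u).1 hu

end Cfsg.Agent.Lib.Helper47.ReeAutNU
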