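import Mathlib
import Cfsg.Agent.Lib.Helper42.ReeAutStmt
import Cfsg.Agent.Lib.Helper47.ReeAutNU

/-!
# S2127 piece ALIGN (helper47)

An automorphism that can be corrected by an inner one to normalize `U` can be corrected to
normalize `U` and `H`.
-/

set_option autoImplicit false

namespace Cfsg.Agent.Lib.Helper47.ReeAutALIGN

open Cfsg.Agent.Lib.Helper42.ReeAutStmt
open Cfsg.Agent.Lib.Helper47.ReeAutNU

universe u

theorem key {G : Type u} [Group G] [Finite G] (U H : Subgroup G) (n : G) (hGeo : Geo G U H n)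
    (β : MulAut G) (hβU : ∀ u ∈ U, β u ∈ U) :
    ∃ u ∈ U, ∀ h ∈ H, u⁻¹ * β h * u ∈ H := by
  have hsurj : ∀ u ∈ U, ∃ w ∈ U, β w = u := by
    have hinj : Function.Injective (fun w : U => (⟨β w.1, hβU w.1 w.2⟩ : U)) := by
      intro a b hab
      have h1 : β a.1 = β b.1 := congrArg (fun z : ↥U => (z : G)) hab
      exact Subtype.ext (β.injective h1)
    have hs := Finite.surjective_of_injective hinj
    intro u hu
    obtain ⟨w, hw⟩ := hs ⟨u, hu⟩
    exact ⟨w.1, w.2, congrArg (fun z : ↥U => (z : G)) hw⟩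
  have hfw : ∀ x, NU U x → NU U (β x) := by
    intro x hx u hu
    obtain ⟨w, hw, rfl⟩ := hsurj u hu
    rw [← map_inv, ← map_mul, ← map_mul]
    exact hβU _ (hx w hw)
  have hbw : ∀ x, NU U (β x) → NU U x := by
    intro x hx u hu
    have h1 := hx (β u) (hβU u hu)
    rw [← map_inv, ← map_mul, ← map_mul] at h1
    obtain ⟨w, hw, hweq⟩ := hsurj _ h1
    have h2 := β.injective hweq
    rw [← h2]
    exact hw
  have hβn : ¬ NU U (β n) := fun h => hGeo.n_not (hbw n h)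
  obtain ⟨u, hu, hb⟩ : ∃ u ∈ U, NU U (n⁻¹ * u⁻¹ * β n) := by
    rcases hGeo.trans (β n) with h | h
    · exact absurd h hβn
    · exact h
  obtain ⟨b, hbdef⟩ : ∃ b, b = n⁻¹ * u⁻¹ * β n := ⟨_, rfl⟩
  rw [← hbdef] at hb
  have hβn_eq : β n = u * n * b := by
    rw [hbdef]
    group
  refine ⟨u, hu, fun h hh => ?_⟩
  have hUu := nu_of_mem U hu
  apply hGeo.stab
  · exact nu_mul U (nu_mul U (nu_inv U hUu) (hfw h (hGeo.hN h hh))) hUu
  · have e : n⁻¹ * (u⁻¹ * β h * u) * n =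
        (b * u) * (u⁻¹ * β (n⁻¹ * h * n) * u) * (b * u)⁻¹ := by
      rw [map_mul, map_mul, map_inv, hβn_eq]
      group
    rw [e]
    have h1 : NU U (β (n⁻¹ * h * n)) := hfw _ (hGeo.hN _ (hGeo.n_H h hh))
    exact nu_mul U (nu_mul U (nu_mul U hb hUu) (nu_mul U (nu_mul U (nu_inv U hUu) h1) hUu))
      (nu_inv U (nu_mul U hb hUu))

theorem main : Cfsg.Agent.Lib.Helper42.ReeAutStmt.AlignP.{u} := by
  intro G _ _ U H n hGeo α hα
  obtain ⟨g, hg⟩ := hα
  obtain ⟨β, hβ⟩ : ∃ β : MulAut G, ∀ x, β x = g⁻¹ * α x * g := by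
    refine ⟨MulAut.conj g⁻¹ * α, fun x => ?_⟩
    rw [MulAut.mul_apply, MulAut.conj_apply, inv_inv]
  have hβU : ∀ u ∈ U, β u ∈ U := by
    intro u hu
    rw [hβ]
    exact hg u hu
  obtain ⟨u, hu, huH⟩ := key U H n hGeo β hβU
  refine ⟨g * u, ?_, ?_⟩
  · intro w hw
    have e : (g * u)⁻¹ * α w * (g * u) = u⁻¹ * (g⁻¹ * α w * g) * u := by group
    rw [e]
    exact U.mul_mem (U.mul_mem (U.inv_mem hu) (hg w hw)) hu
  · intro h hh
    have e : (g * u)⁻¹ * α h * (g * u) = u⁻¹ * (g⁻¹ * α h * g) * u := by group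
    rw [e, ← hβ]
    exact huH h hh
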