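import Mathlib
import Cfsg.Agent.Lib.Helper18.ReeMultStmt

/-!
# S2113 piece EXR (helper47)

A field with `3^(2m+1) ≥ 27` elements has `r ≠ 0` with `r⁸ ≠ 1` and `r³ ≠ r`: the other
elements are roots of `X⁹ - X`.
-/

set_option autoImplicit false

namespace Cfsg.Agent.Lib.Helper47.ReeMultEXR

universe v

theorem main : Cfsg.Agent.Lib.Helper18.ReeMultStmt.EXR.{v} := by
  intro K _ _ m hm hK
  classical
  by_contra hcon
  have hall : ∀ r : K, r ^ 9 = r := by
    intro r
    by_cases h0 : r = 0
    · rw [h0]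
      simp
    by_cases h8 : r ^ 8 = 1
    · calc r ^ 9 = r ^ 8 * r := by ring
        _ = r := by rw [h8, one_mul]
    by_cases h3 : r ^ 3 = r
    · calc r ^ 9 = (r ^ 3) ^ 3 := by ring
        _ = r := by rw [h3, h3]
    exact absurd ⟨r, h0, h8, h3⟩ hcon
  have h1 : (Finset.univ : Finset K) ⊆
      (Polynomial.X ^ 9 - Polynomial.X : Polynomial K).roots.toFinset := by
    intro x _
    rw [Multiset.mem_toFinset,
      Polynomial.mem_roots (FiniteField.X_pow_card_sub_X_ne_zero K (by norm_num))]
    simp only [Polynomial.IsRoot.def, Polynomial.eval_sub, Polynomial.eval_pow,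
      Polynomial.eval_X]
    rw [hall, sub_self]
  have h2 := Finset.card_le_card h1
  have h3 := Multiset.toFinset_card_le (Polynomial.X ^ 9 - Polynomial.X : Polynomial K).roots
  have h4 := Polynomial.card_roots' (Polynomial.X ^ 9 - Polynomial.X : Polynomial K)
  rw [FiniteField.X_pow_card_sub_X_natDegree_eq K (by norm_num)] at h4
  rw [Finset.card_univ, hK] at h2
  have h5 : 27 ≤ 3 ^ (2 * m + 1) := by
    calc 27 = 3 ^ 3 := by norm_num
      _ ≤ 3 ^ (2 * m + 1) := Nat.pow_le_pow_right (by norm_num) (by omega)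
  omega
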