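import Mathlib
import Cfsg.Agent.Lib.Helper54.S52Stmt

/-!
# S1352 piece UEX (helper47, second seat)

A Hall subgroup `K` of `E` with `K ⊓ E' = ⊥` has a normal complement in `E`:
`U = {e ∈ E | e ^ n ∈ E'}` with `n = |E : K|`.
-/

set_option autoImplicit false

namespace Cfsg.Agent.Lib.Helper47.S52UEX

universe u

theorem main : Cfsg.Agent.Lib.Helper54.S52Stmt.UEx.{u} := by
  intro G _ _ E K hKE hcop hKE'
  have hgcd : Nat.gcd (Nat.card K) (K.relIndex E) = 1 := hcop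
  let φ : ↥E →* Abelianization ↥E := (powMonoidHom (K.relIndex E)).comp Abelianization.of
  have hφ : ∀ x : ↥E, φ x = (Abelianization.of x) ^ (K.relIndex E) := fun x => rfl
  have hker : ∀ x : ↥E, x ∈ φ.ker ↔ x ^ (K.relIndex E) ∈ commutator ↥E := by
    intro x
    rw [MonoidHom.mem_ker, hφ, ← map_pow, ← Abelianization.ker_of, MonoidHom.mem_ker]
  have hKpow : ∀ x ∈ K, x ^ (Nat.card K) = 1 := by
    intro x hx
    have h1 := pow_card_eq_one' (G := ↥K) (x := ⟨x, hx⟩)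
    exact congrArg Subtype.val h1
  have hsurj : Function.Surjective (Abelianization.of : ↥E →* Abelianization ↥E) :=
    QuotientGroup.mk'_surjective _
  refine ⟨φ.ker.map E.subtype, Subgroup.map_subtype_le _, ?_, ?_, ?_⟩
  · -- `U ⊓ K = ⊥`
    rw [Subgroup.eq_bot_iff_forall]
    rintro x ⟨⟨x', hx', rfl⟩, hxK⟩
    have hxK' : (x' : G) ∈ K := hxK
    show (x' : G) = 1
    have h1 : (x' : G) ^ (K.relIndex E) ∈ ⁅E, E⁆ := by
      rw [← Subgroup.map_subtype_commutator]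
      exact ⟨x' ^ (K.relIndex E), (hker x').1 hx', rfl⟩
    have h2 : (x' : G) ^ (K.relIndex E) ∈ K ⊓ ⁅E, E⁆ := ⟨K.pow_mem hxK' _, h1⟩
    rw [hKE'] at h2
    have h3 : (x' : G) ^ (K.relIndex E) = 1 := h2
    have h4 := hKpow _ hxK'
    have h5 : orderOf (x' : G) ∣ Nat.gcd (Nat.card K) (K.relIndex E) :=
      Nat.dvd_gcd (orderOf_dvd_of_pow_eq_one h4) (orderOf_dvd_of_pow_eq_one h3)
    rw [hgcd] at h5
    exact orderOf_eq_one_iff.1 (Nat.dvd_one.1 h5)
  · -- `E ≤ N(U)`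
    intro e he
    have hnorm : φ.ker.Normal := inferInstance
    rw [Subgroup.mem_normalizer_iff]
    intro h
    constructor
    · rintro ⟨h', hh', rfl⟩
      exact ⟨⟨e, he⟩ * h' * ⟨e, he⟩⁻¹, hnorm.conj_mem h' hh' ⟨e, he⟩, rfl⟩
    · rintro ⟨w, hw, hwe⟩
      have hwe' : (w : G) = e * h * e⁻¹ := hwe
      refine ⟨(⟨e, he⟩ : ↥E)⁻¹ * w * ⟨e, he⟩, ?_, ?_⟩
      · have h1 := hnorm.conj_mem w hw ((⟨e, he⟩ : ↥E)⁻¹)
        rwa [inv_inv] at h1
      · show e⁻¹ * (w : G) * e = h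
        rw [hwe']; group
  · -- `E = U K`
    intro e he
    have hidx : ((K.subgroupOf E).map (Abelianization.of : ↥E →* Abelianization ↥E)).index ∣
        K.relIndex E := Subgroup.index_map_dvd (K.subgroupOf E) hsurj
    have hpow : (Abelianization.of (⟨e, he⟩ : ↥E)) ^ (K.relIndex E) ∈
        (K.subgroupOf E).map (Abelianization.of : ↥E →* Abelianization ↥E) := by
      obtain ⟨d, hd⟩ := hidx
      rw [hd, pow_mul]
      exact Subgroup.pow_mem _ (Subgroup.pow_index_mem _ _) d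
    obtain ⟨k, hkK', hk⟩ := hpow
    have hkK : (k : G) ∈ K := Subgroup.mem_subgroupOf.1 hkK'
    obtain ⟨a, b, hab⟩ : ∃ a b : ℤ, (Nat.card K : ℤ) * a + (K.relIndex E : ℤ) * b = 1 := by
      refine ⟨Nat.gcdA (Nat.card K) (K.relIndex E), Nat.gcdB (Nat.card K) (K.relIndex E), ?_⟩
      rw [← Nat.gcd_eq_gcd_ab, hgcd]; rfl
    have hkm : k ^ (Nat.card K) = 1 := Subtype.ext (hKpow _ hkK)
    have hk2n : (k ^ b) ^ (K.relIndex E) = k := by
      rw [← zpow_natCast, ← zpow_mul]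
      have h1 : b * (K.relIndex E : ℤ) = 1 - (Nat.card K : ℤ) * a := by linarith
      rw [h1, zpow_sub, zpow_one, zpow_mul, zpow_natCast, hkm, one_zpow, inv_one, mul_one]
    have hu : (⟨e, he⟩ : ↥E) * (k ^ b)⁻¹ ∈ φ.ker := by
      rw [MonoidHom.mem_ker, hφ, map_mul, map_inv, mul_pow, inv_pow, ← map_pow _ (k ^ b),
        hk2n, hk]
      exact mul_inv_cancel _
    refine ⟨(((⟨e, he⟩ : ↥E) * (k ^ b)⁻¹ : ↥E) : G), ⟨_, hu, rfl⟩, ((k ^ b : ↥E) : G), ?_, ?_⟩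
    · exact Subgroup.mem_subgroupOf.1 ((K.subgroupOf E).zpow_mem hkK' b)
    · simp
end Cfsg.Agent.Lib.Helper47.S52UEX
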