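import Mathlib
import Cfsg.Agent.Lib.Helper54.S52Stmt

/-!
# S1352 piece YEX (helper47, second seat)

If `R0 ≤ E'` has prime order `r`, is normal in `E`, and the Sylow `r`-subgroups of `E` are
cyclic, then some element of `E` of prime power order does not centralize `R0` (transfer).
-/

set_option autoImplicit false

namespace Cfsg.Agent.Lib.Helper47.S52YEX

universe u

/-- If all elements of prime power order of `K` lie in `Z`, then `K ≤ Z`. -/
theorem le_of_primePow' {G : Type u} [Group G] [Finite G] (K Z : Subgroup G)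
    (h : ∀ x ∈ K, ∀ t k : ℕ, t.Prime → orderOf x = t ^ k → x ∈ Z) : K ≤ Z := by
  have hZK : Z ⊓ K ≤ K := inf_le_right
  suffices h1 : Nat.card K ∣ Nat.card ↥(Z ⊓ K) by
    have h2 : Z ⊓ K = K := Subgroup.eq_of_le_of_card_ge hZK (Nat.le_of_dvd Nat.card_pos h1)
    rw [← h2]; exact inf_le_left
  rw [← Nat.factorization_prime_le_iff_dvd Nat.card_pos.ne' Nat.card_pos.ne']
  intro p hp
  have : Fact p.Prime := ⟨hp⟩
  obtain ⟨P⟩ : Nonempty (Sylow p K) := inferInstance
  have hPZ : (P : Subgroup K).map K.subtype ≤ Z ⊓ K := by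
    rintro _ ⟨x, hx, rfl⟩
    obtain ⟨k, hk⟩ := (IsPGroup.iff_orderOf.mp P.isPGroup') ⟨x, hx⟩
    rw [Subgroup.orderOf_mk] at hk
    refine ⟨h x x.2 p k hp ?_, x.2⟩
    rw [Subgroup.orderOf_coe]; exact hk
  have h3 : p ^ (Nat.card K).factorization p ∣ Nat.card ↥(Z ⊓ K) := by
    rw [← Sylow.card_eq_multiplicity P]
    have h4 := Subgroup.card_dvd_of_le hPZ
    rwa [Subgroup.card_subtype] at h4
  exact (hp.pow_dvd_iff_le_factorization Nat.card_pos.ne').mp h3

open scoped IsMulCommutative in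
theorem main : Cfsg.Agent.Lib.Helper54.S52Stmt.YEx.{u} := by
  intro G _ _ E R0 r hr hR0 hR0E hEN hcyc
  by_contra hcon
  push Not at hcon
  have hfact : Fact r.Prime := ⟨hr⟩
  have hEC : E ≤ Subgroup.centralizer (R0 : Set G) := by
    apply le_of_primePow'
    intro x hx t k ht hxo
    rw [Subgroup.mem_centralizer_iff]
    intro u hu
    rcases Nat.eq_zero_or_pos k with rfl | hk
    · rw [pow_zero, orderOf_eq_one_iff] at hxo
      rw [hxo]; simp
    · obtain ⟨j, rfl⟩ := Nat.exists_eq_succ_of_ne_zero hk.ne'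
      exact (hcon x hx t j ht hxo u hu).symm
  -- an element of order `r` of `R0`, as an element of the commutator subgroup of `E`
  obtain ⟨g, hg⟩ := exists_prime_orderOf_dvd_card' (G := R0) r (by rw [hR0])
  have hgo : orderOf (g : G) = r := by rw [Subgroup.orderOf_coe, hg]
  have hgc : (g : G) ∈ ⁅E, E⁆ := hR0E g.2
  rw [← Subgroup.map_subtype_commutator] at hgc
  obtain ⟨g', hg'c, hg'⟩ := hgc
  have hg'o : orderOf g' = r := by
    rw [← Subgroup.orderOf_coe, ← hgo]
    exact congrArg orderOf hg'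
  obtain ⟨P⟩ : Nonempty (Sylow r E) := inferInstance
  have hcomm : IsMulCommutative ↥(P : Subgroup ↥E) := by
    have := hcyc P
    exact IsCyclic.isMulCommutative
  have key : ∀ (k : ℕ) (g₀ : ↥E), g₀⁻¹ * g' ^ k * g₀ ∈ (P : Subgroup ↥E) →
      g₀⁻¹ * g' ^ k * g₀ = g' ^ k := by
    intro k g₀ _
    have h1 : (g : G) * (g₀ : G) = (g₀ : G) * (g : G) :=
      (Subgroup.mem_centralizer_iff.1 (hEC g₀.2)) (g : G) g.2
    have h2 : g' * g₀ = g₀ * g' := by
      apply Subtype.ext
      have h3 : (g' : G) = (g : G) := hg'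
      rw [Subgroup.coe_mul, Subgroup.coe_mul, h3]
      exact h1
    have h4 : g' ^ k * g₀ = g₀ * g' ^ k := (Commute.pow_left h2 k)
    rw [mul_assoc, h4, inv_mul_cancel_left]
  have h1 := MonoidHom.transfer_eq_pow (MonoidHom.id ↥(P : Subgroup ↥E)) g' key
  have h2 : MonoidHom.transfer (MonoidHom.id ↥(P : Subgroup ↥E)) g' = 1 :=
    Abelianization.commutator_subset_ker
      (MonoidHom.transfer (MonoidHom.id ↥(P : Subgroup ↥E))) hg'c
  rw [h2] at h1
  have h3 : g' ^ (P : Subgroup ↥E).index = 1 := by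
    have := congrArg Subtype.val h1
    simpa using this.symm
  have h4 : orderOf g' ∣ (P : Subgroup ↥E).index := orderOf_dvd_of_pow_eq_one h3
  rw [hg'o] at h4
  exact P.not_dvd_index h4

end Cfsg.Agent.Lib.Helper47.S52YEX
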