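import Mathlib
import Cfsg.Agent.Lib.Helper62.S57Stmt

/-!
# S1357 piece NILPROD2 (helper47)

`H = O D`, `H / O` nilpotent, `D` centralizes the `q`-group `O`: `H` is nilpotent.
`D` embeds into `H / O`; `O ⊔ D` is the image of `O × D`; `H ≤ O ⊔ D`.
-/

set_option autoImplicit false

namespace Cfsg.Agent.Lib.Helper47.S57NILPROD2

open Cfsg Cfsg.Agent.Lib.Helper62.S57Stmt

universe u

theorem main : NilProd2.{u} := by
  intro X _ _ H O D _ _ q _ hO hOH hDH hDO hHOD hnil hcent
  -- `D` is nilpotent
  have h1 : Group.IsNilpotent ↥D := by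
    let g : ↥D →* ↥(H.map (QuotientGroup.mk' O)) :=
      ((QuotientGroup.mk' O).comp D.subtype).codRestrict (H.map (QuotientGroup.mk' O))
        (fun x => Subgroup.mem_map_of_mem _ (hDH x.2))
    haveI := hnil
    refine Subgroup.isNilpotent_of_ker_le_center g ?_
    intro x hx
    have hx1 : (QuotientGroup.mk' O) (x : X) = 1 := by
      have h := (MonoidHom.mem_ker).mp hx
      exact congrArg Subtype.val h
    have hxO : (x : X) ∈ O := (QuotientGroup.eq_one_iff _).mp hx1
    have hx0 : (x : X) ∈ D ⊓ O := ⟨x.2, hxO⟩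
    rw [hDO, Subgroup.mem_bot] at hx0
    have hx' : x = 1 := Subtype.ext hx0
    rw [hx']
    exact Subgroup.one_mem _
  have h2 : Group.IsNilpotent ↥O := hO.isNilpotent
  have hcomm : ∀ (o : ↥O) (d : ↥D), Commute (O.subtype o) (D.subtype d) := by
    intro o d
    exact (Subgroup.mem_centralizer_iff.mp (hcent d.2)) o o.2
  have hL : Group.IsNilpotent
      ↥(MonoidHom.noncommCoprod O.subtype D.subtype hcomm).range :=
    Group.nilpotent_of_surjective
      (MonoidHom.noncommCoprod O.subtype D.subtype hcomm).rangeRestrict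
      (MonoidHom.rangeRestrict_surjective _)
  have hle : H ≤ (MonoidHom.noncommCoprod O.subtype D.subtype hcomm).range := by
    rw [MonoidHom.noncommCoprod_range, Subgroup.range_subtype, Subgroup.range_subtype]
    exact hHOD
  haveI := hL
  exact Subgroup.isNilpotent_of_ker_le_center (Subgroup.inclusion hle)
    (by rw [Subgroup.ker_inclusion]; exact bot_le)

end Cfsg.Agent.Lib.Helper47.S57NILPROD2
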