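import Mathlib
import Cfsg.Agent.Lib.Helper93.S64Stmt
import Cfsg.Agent.Lib.Helper31.SigBasic

/-!
# S1364 piece DECOMP (helper47)

Coprime decomposition relative to a normal `Fb ⊇ [H, R]`: `H ≤ (H ⊓ C(x)) ⊔ Fb` for `x ∈ R` of
prime order.
-/

set_option autoImplicit false

namespace Cfsg.Agent.Lib.Helper47.S64DECOMP

open Cfsg.Agent.Lib.Helper93.S64Stmt
open scoped commutatorElement

universe u

theorem main : Decomp.{u} := by
  intro X _ _ H R Fb hHn hFn hFH hcop hcomm x hxR hxp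
  intro h hh
  have : Fact (orderOf x).Prime := ⟨hxp⟩
  -- `orderOf x` does not divide `|Fb|`
  have hxR' : orderOf x ∣ Nat.card ↥R := by
    have h1 : orderOf (⟨x, hxR⟩ : ↥R) = orderOf x := Subgroup.orderOf_mk x hxR
    rw [← h1]
    exact orderOf_dvd_natCard _
  have hFbH : Nat.card ↥Fb ∣ Nat.card ↥H := Subgroup.card_dvd_of_le hFH
  have hnd : ¬ orderOf x ∣ Nat.card ↥Fb := by
    intro hdvd
    have h2 : orderOf x ∣ Nat.gcd (Nat.card ↥H) (Nat.card ↥R) :=
      Nat.dvd_gcd (hdvd.trans hFbH) hxR'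
    rw [Nat.Coprime] at hcop
    rw [hcop] at h2
    exact hxp.one_lt.ne' (Nat.dvd_one.mp h2)
  have hmem : h⁻¹ * (x * h * x⁻¹) ∈ Fb := by
    apply hcomm
    have h3 : ⁅h⁻¹, x⁆ ∈ ⁅H, R⁆ := Subgroup.commutator_mem_commutator (H.inv_mem hh) hxR
    have h4 : ⁅h⁻¹, x⁆ = h⁻¹ * (x * h * x⁻¹) := by
      rw [commutatorElement_def]
      group
    rw [← h4]
    exact h3
  obtain ⟨n, hn, hfix⟩ := Cfsg.Agent.Lib.Helper31.SigBasic.exists_commute_in_coset x
    (pow_orderOf_eq_one x) Fb hnd (fun n hn => hFn.conj_mem n hn x) h hmem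
  have hhn : h * n ∈ H ⊓ Subgroup.centralizer ({x} : Set X) := by
    refine ⟨H.mul_mem hh (hFH hn), ?_⟩
    show h * n ∈ Subgroup.centralizer ({x} : Set X)
    rw [Subgroup.mem_centralizer_iff]
    intro y hy
    rw [Set.mem_singleton_iff] at hy
    rw [hy]
    exact hfix
  have : h = (h * n) * n⁻¹ := by group
  rw [this]
  exact Subgroup.mul_mem_sup hhn (Fb.inv_mem hn)

end Cfsg.Agent.Lib.Helper47.S64DECOMP
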