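import Mathlib
import Cfsg.Agent.Lib.Helper79.SNStmt
import Cfsg.Agent.Lib.CT.Kernel
import Cfsg.Agent.Lib.CT.Wedderburn

/-!
# S4931 piece KERN (helper47)

The common kernel of a set of irreducible characters is a normal subgroup.
-/

set_option autoImplicit false

namespace Cfsg.Agent.Lib.Helper47.SNKERN

open Cfsg

universe u

theorem main : Cfsg.Agent.Lib.Helper79.SNStmt.Kern.{u} := by
  intro G _ _ Θ
  have hex : ∀ χ : IrrCharacter G, ∃ N : Subgroup G, N.Normal ∧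
      ∀ g, g ∈ N ↔ (χ : G → ℂ) g = (χ : G → ℂ) 1 := fun χ =>
    Cfsg.Agent.Lib.CT.Kernel.exists_normal_ker
      (Cfsg.Agent.Lib.CT.Wedderburn.isCharacter_of_irr χ.2)
  choose N hNn hNmem using hex
  refine ⟨⨅ χ : Θ, N χ.1, Subgroup.normal_iInf_normal (fun χ => hNn χ.1), fun g => ?_⟩
  rw [Subgroup.mem_iInf]
  constructor
  · intro h χ hχ
    exact (hNmem χ g).1 (h ⟨χ, hχ⟩)
  · intro h χ
    exact (hNmem χ.1 g).2 (h χ.1 χ.2)

end Cfsg.Agent.Lib.Helper47.SNKERN
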