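import Mathlib
import Cfsg.Agent.Lib.Helper79.SNStmt
import Cfsg.Agent.Lib.CT.Kernel
import Cfsg.Agent.Lib.CT.Orth

/-!
# S4931 piece SEP (helper47)

The irreducible characters of `H ⧸ D`, inflated to `H`, separate `D` from its complement.
-/

set_option autoImplicit false

namespace Cfsg.Agent.Lib.Helper47.SNSEP

open Cfsg

universe u

theorem main : Cfsg.Agent.Lib.Helper79.SNStmt.Sep.{u} := by
  intro H _ _ D hD x hx
  have hx1 : (x : H ⧸ D) ≠ 1 := fun h => hx ((QuotientGroup.eq_one_iff x).1 h)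
  have hex : ∃ ψ : IrrCharacter (H ⧸ D),
      (ψ : H ⧸ D → ℂ) (x : H ⧸ D) ≠ (ψ : H ⧸ D → ℂ) 1 := by
    by_contra hall
    simp only [not_exists, not_not] at hall
    have hconj := Cfsg.Agent.Lib.CT.Orth.isConj_of_irr_eq (x : H ⧸ D) 1 hall
    exact hx1 (isConj_one_left.1 hconj)
  obtain ⟨ψ, hψ⟩ := hex
  refine ⟨⟨fun h : H => (ψ : H ⧸ D → ℂ) (h : H ⧸ D),
    Cfsg.Agent.Lib.CT.Kernel.isIrrCharacter_inflation D ψ.2⟩, ?_, ?_⟩
  · intro d hd
    exact Cfsg.Agent.Lib.CT.Kernel.inflation_apply_of_mem D (ψ : H ⧸ D → ℂ) hd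
  · exact hψ

end Cfsg.Agent.Lib.Helper47.SNSEP
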