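import Mathlib
import Cfsg.Prelude.Def_RootSubgroups
import Cfsg.Agent.Lib.Helper83.SgStmt
import Cfsg.Agent.Lib.Helper83.Comp
import Cfsg.Agent.Lib.Helper83.Triple

/-!
# Piece EXCL of S5072: the commutator case excludes a rank one pair
-/

set_option autoImplicit false

namespace Cfsg.Agent.Lib.Helper47.SgEXCL

open Cfsg Cfsg.Agent.Lib.Helper83.Triple

universe u

theorem excl {G : Type u} [Group G] (S : Set (Subgroup G)) (A B : Subgroup G)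
    (hA : IsMulCommutative ↥A) (hB : IsMulCommutative ↥B) (hc : RootCommutatorCase S A B) :
    ¬ IsRankOnePair A B := by
  intro hp
  have hcm : Cm ⁅A, B⁆ (A ⊔ B) := hc.2.1
  have hcmA : Cm ⁅A, B⁆ A := hcm.mono le_rfl le_sup_left
  have hcmB : Cm ⁅A, B⁆ B := hcm.mono le_rfl le_sup_right
  have hnA : A ≤ Subgroup.normalizer ((⁅A, B⁆ : Subgroup G) : Set G) := hcmA.symm.le_normalizer
  have hnB : B ≤ Subgroup.normalizer ((⁅A, B⁆ : Subgroup G) : Set G) := hcmB.symm.le_normalizer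
  have hAA : ⁅A, A⁆ ≤ ⁅A, B⁆ := by
    rw [cm_iff_bot.mp (cm_self_of_comm hA)]; exact bot_le
  have hBB : ⁅B, B⁆ ≤ ⁅A, B⁆ := by
    rw [cm_iff_bot.mp (cm_self_of_comm hB)]; exact bot_le
  have hBA : ⁅B, A⁆ ≤ ⁅A, B⁆ := by rw [Subgroup.commutator_comm]
  have h1 : ⁅A ⊔ B, A ⊔ B⁆ ≤ ⁅A, B⁆ := by
    apply commutator_sup_le hnA hnB
    · exact commutator_le_of_sup hnA hnB hAA le_rfl
    · exact commutator_le_of_sup hnA hnB hBA hBB
  have h2 : ⁅⁅A, B⁆, A ⊔ B⁆ ≤ (⊥ : Subgroup G) := le_of_eq (cm_iff_bot.mp hcm)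
  have h3 : ⁅(⊥ : Subgroup G), A ⊔ B⁆ ≤ (⊥ : Subgroup G) := by
    rw [Subgroup.commutator_bot_left]
  have h4 : ⁅(⊥ : Subgroup G), A ⊔ B⁆ = (⊥ : Subgroup G) := Subgroup.commutator_bot_left _
  have hR : Group.IsNilpotent ↥(A ⊔ B) := nilpotent_of_chain h1 h2 h3 h4
  exact Cfsg.Agent.Lib.Helper83.Comp.not_nilpotent_of_le hp le_rfl hR

theorem main : Cfsg.Agent.Lib.Helper83.SgStmt.EXCL.{u} := by
  intro G _ S A B hA hB hc
  exact excl S A B hA hB hc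

end Cfsg.Agent.Lib.Helper47.SgEXCL
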