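import Mathlib
import Cfsg.Agent.Lib.Helper52.SpStmt

/-!
# Piece NGP of S5171: generation of the normalizer of `PU` from its parts
-/

set_option autoImplicit false

namespace Cfsg.Agent.Lib.Helper47.SpNGP

open Matrix Cfsg.Agent.Lib.Helper43.SpBasic Cfsg.Agent.Lib.Helper43.SpSylow
open Cfsg.Agent.Lib.Helper52.SpStmt

universe u

theorem main : Cfsg.Agent.Lib.Helper52.SpStmt.NormGenOfParts.{u} := by
  intro hNL hNT1 hNT2 hTS hTA hTB hRQB m F _ _ p _ _ hm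
  intro g hg
  obtain ⟨g0, rfl⟩ := pr_surjective g
  have h1 := hNL m F p hm g0 hg
  obtain ⟨h21, h11⟩ := hNT1 m F hm g0 h1
  obtain ⟨d, u, hd, hu, rfl⟩ := hNT2 m F g0 h21 h11
  obtain ⟨dA, dB, hdA, hprod, hdB, hdB1, rfl⟩ := hTS m F hm d hd
  obtain ⟨hA1, hA2⟩ := hTA m F p hm dA hdA hprod
  obtain ⟨hB1, hB2⟩ := hTB m F p hm dB hdB hdB1
  have hRQmem : RQ m F ∈ Rset m F := Set.mem_insert _ _
  have hR2mem : R2 m F ∈ Rset m F := Set.mem_insert_of_mem _ rfl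
  have huPU : pr u ∈ (PU : Subgroup (Cfsg.PSp m F)) := Subgroup.mem_map_of_mem _ hu
  have hu1 : pr u ∈ Subgroup.normalizer ((PU : Subgroup (Cfsg.PSp m F)) : Set (Cfsg.PSp m F)) :=
    Subgroup.le_normalizer huPU
  have hu2 : pr u ∈ Subgroup.normalizer (RQ m F : Set (Cfsg.PSp m F)) := by
    rw [Subgroup.mem_normalizer_iff]
    intro h
    constructor
    · intro hh
      exact (hRQB m F).2 _ huPU _ hh
    · intro hh
      have h2 := (hRQB m F).2 _ (Subgroup.inv_mem _ huPU) _ hh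
      have e : (pr u)⁻¹ * (pr u * h * (pr u)⁻¹) * (pr u)⁻¹⁻¹ = h := by group
      rwa [e] at h2
  have hu3 : ∃ e : ℕ, orderOf (pr u) = p ^ e := by
    obtain ⟨n, hp, hcard⟩ := FiniteField.card F p
    have hPG := isPGroup_PU (m := m) hcard hm
    obtain ⟨e, he⟩ := hPG ⟨pr u, huPU⟩
    have h3 : (pr u) ^ p ^ e = 1 := by simpa using congrArg Subtype.val he
    obtain ⟨e', -, he'⟩ := (Nat.dvd_prime_pow (Fact.out)).mp (orderOf_dvd_of_pow_eq_one h3)
    exact ⟨e', he'⟩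
  rw [map_mul, map_mul]
  refine Subgroup.mul_mem _ (Subgroup.mul_mem _
    (Subgroup.subset_closure ⟨hA1, RQ m F, hRQmem, hA2⟩)
    (Subgroup.subset_closure ⟨hB1, R2 m F, hR2mem, hB2⟩))
    (Subgroup.subset_closure ⟨hu1, RQ m F, hRQmem, Subgroup.subset_closure ⟨hu2, hu3⟩⟩)

end Cfsg.Agent.Lib.Helper47.SpNGP
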