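import Mathlib
import Cfsg.Agent.Lib.Helper14.TC3Stmt

/-!
# S4460 piece B2B (helper47): `main (h : THN) : B2B`

`L` from `THN` and `P` a Sylow `p`-subgroup of `N` give `N = L ⋊ P`.
-/

set_option autoImplicit false

namespace Cfsg.Agent.Lib.Helper47.TC3B2B

open Cfsg Cfsg.Agent.Lib.Helper14.TC3Stmt

universe u

theorem main (h : Cfsg.Agent.Lib.Helper14.TC3Stmt.THN.{u}) :
    Cfsg.Agent.Lib.Helper14.TC3Stmt.B2B.{u} := by
  intro G _ _ N p hN hp hnl
  have : Fact p.Prime := ⟨hp⟩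
  obtain ⟨L, hLn, hLN, hLco, k, hk⟩ := h G N p hN hp hnl
  obtain ⟨P₁⟩ : Nonempty (Sylow p ↥N) := inferInstance
  have hcardN : Nat.card ↥N = Nat.card ↥L * p ^ k := by
    have h1 := Subgroup.card_mul_index (L.subgroupOf N)
    have h2 : Nat.card ↥(L.subgroupOf N) = Nat.card ↥L :=
      Nat.card_congr (Subgroup.subgroupOfEquivOfLe hLN).toEquiv
    have h3 : (L.subgroupOf N).index = p ^ k := hk
    rw [h2, h3] at h1
    exact h1.symm
  have hndvd : ¬ p ∣ Nat.card ↥L := (Nat.Prime.coprime_iff_not_dvd hp).1 hLco.symm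
  have hcardP : Nat.card ↥((P₁ : Subgroup ↥N).map N.subtype) = p ^ k := by
    rw [Subgroup.card_map_of_injective N.subtype_injective, Sylow.card_eq_multiplicity, hcardN,
      Nat.factorization_mul Nat.card_pos.ne' (pow_ne_zero _ hp.ne_zero),
      Nat.Prime.factorization_pow hp]
    simp [Nat.factorization_eq_zero_of_not_dvd hndvd]
  have hcop : (Nat.card ↥L).Coprime (Nat.card ↥((P₁ : Subgroup ↥N).map N.subtype)) := by
    rw [hcardP]; exact hLco.pow_right k
  have hPN : (P₁ : Subgroup ↥N).map N.subtype ≤ N := Subgroup.map_subtype_le _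
  refine ⟨L, (P₁ : Subgroup ↥N).map N.subtype, hLn, hLN, hPN, hLco, P₁.isPGroup'.map N.subtype,
    ?_, (Subgroup.disjoint_of_coprime_natCard hcop).eq_bot, k, hk⟩
  refine Subgroup.eq_of_le_of_card_ge (sup_le hLN hPN) ?_
  have hdvd : Nat.card ↥L * Nat.card ↥((P₁ : Subgroup ↥N).map N.subtype) ∣
      Nat.card ↥(L ⊔ (P₁ : Subgroup ↥N).map N.subtype) :=
    Nat.Coprime.mul_dvd_of_dvd_of_dvd hcop (Subgroup.card_dvd_of_le le_sup_left)
      (Subgroup.card_dvd_of_le le_sup_right)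
  rw [hcardP, ← hcardN] at hdvd
  exact Nat.le_of_dvd Nat.card_pos hdvd

end Cfsg.Agent.Lib.Helper47.TC3B2B
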