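import Mathlib
import Cfsg.Agent.Lib.Helper14.TC3Stmt
import Cfsg.Agent.Lib.Helper3.TDBasic
import Cfsg.Agent.Lib.CT.NormOne
import Cfsg.Agent.Lib.CT.LinChar
import Cfsg.Agent.Lib.CT.Ops

/-!
# S4460 piece HN (helper47)

If every nonlinear irreducible character of the normal subgroup `N` has degree divisible by
`p` and `p ∤ χ(1)`, then all constituents of `χ_N` are linear, so `χ` is constant on `N'`.
-/

set_option autoImplicit false

namespace Cfsg.Agent.Lib.Helper47.TC3HN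

open Cfsg Cfsg.Agent.Lib.Helper14.TC3Stmt

universe u

theorem main : Cfsg.Agent.Lib.Helper14.TC3Stmt.HN.{u} := by
  intro G _ _ N p hN hnl χ hpχ x hx
  classical
  have := hN
  have := Fintype.ofFinite G
  have : Fintype ↥N := Fintype.ofFinite _
  have := Cfsg.Agent.Lib.Helper3.Irr.finite_irrCharacter (G := ↥N)
  have := Fintype.ofFinite (IrrCharacter ↥N)
  have hχc : IsCharacter G (χ : G → ℂ) := Cfsg.Agent.Lib.CT.Wedderburn.isCharacter_of_irr χ.2
  have hres : IsCharacter ↥N (fun n : ↥N => (χ : G → ℂ) n) :=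
    Cfsg.Agent.Lib.CT.Ops.isCharacter_restrict N hχc
  obtain ⟨m, hm, hsum⟩ := Cfsg.Agent.Lib.CT.NormOne.exists_mult_sum hres
  have hx' : x ∈ (commutator ↥N).map N.subtype := by
    rw [Subgroup.map_subtype_commutator]; exact hx
  obtain ⟨y, hy, rfl⟩ := hx'
  have hterm : ∀ ψ : IrrCharacter ↥N,
      (m ψ : ℂ) * (ψ : ↥N → ℂ) y = (m ψ : ℂ) * (ψ : ↥N → ℂ) 1 := by
    intro ψ
    by_cases hm0 : m ψ = 0
    · rw [hm0]; simp
    · have hcon : classInner (fun n : ↥N => (χ : G → ℂ) n) (ψ : ↥N → ℂ) ≠ 0 := by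
        rw [hm ψ]; exact_mod_cast hm0
      have hdvd := (Cfsg.Agent.Lib.Helper3.TDBasic.deg_of_constituent N ψ χ hcon).1
      have hdeg1 : charDegree (ψ : ↥N → ℂ) = 1 := by
        by_contra hne
        exact hpχ ((hnl ψ hne).trans hdvd)
      have hψc := Cfsg.Agent.Lib.CT.Wedderburn.isCharacter_of_irr ψ.2
      have h1 : (ψ : ↥N → ℂ) 1 = 1 := by
        rw [Cfsg.Agent.Lib.Helper80.Integrality.apply_one_eq_charDegree hψc, hdeg1]; simp
      obtain ⟨f, hf⟩ := Cfsg.Agent.Lib.CT.LinChar.exists_hom_of_isCharacter (ψ : ↥N → ℂ) hψc h1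
      have hker : f y = 1 := Abelianization.commutator_subset_ker f hy
      rw [hf y, hf 1, hker, map_one]
  have h1 := congrFun hsum y
  have h2 := congrFun hsum 1
  simp only [Finset.sum_apply, Pi.smul_apply, smul_eq_mul] at h1 h2
  show (χ : G → ℂ) (y : G) = (χ : G → ℂ) 1
  have h2' : (χ : G → ℂ) 1 = ∑ ψ : IrrCharacter ↥N, (m ψ : ℂ) * (ψ : ↥N → ℂ) 1 := h2
  rw [h1, h2']
  exact Finset.sum_congr rfl (fun ψ _ => hterm ψ)

end Cfsg.Agent.Lib.Helper47.TC3HN
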