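import Mathlib
import Cfsg.Agent.Lib.Helper14.TC3Stmt
import Cfsg.Agent.S4456

/-!
# S4460 piece THN (helper47)

Thompson's normal `q`-complement of the normal subgroup `N` is normal in `G`: it consists of
the elements of `N` of order prime to `q`.
-/

set_option autoImplicit false

namespace Cfsg.Agent.Lib.Helper47.TC3THN

open Cfsg Cfsg.Agent.Lib.Helper14.TC3Stmt

universe u

theorem main : Cfsg.Agent.Lib.Helper14.TC3Stmt.THN.{u} := by
  intro G _ _ N q hN hq hnl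
  obtain ⟨L₁, hL₁n, hL₁co, k, hk⟩ := Cfsg.Agent.S4456.result (G := ↥N) q hq hnl
  refine ⟨L₁.map N.subtype, ?_, Subgroup.map_subtype_le _, ?_, k, ?_⟩
  · constructor
    intro x hx g
    obtain ⟨y, hy, rfl⟩ := hx
    have hmemN : g * (y : G) * g⁻¹ ∈ N := hN.conj_mem _ y.2 g
    refine ⟨⟨g * y * g⁻¹, hmemN⟩, ?_, rfl⟩
    have h1 : orderOf (⟨g * y * g⁻¹, hmemN⟩ : ↥N) = orderOf y := by
      rw [← Subgroup.orderOf_coe, ← Subgroup.orderOf_coe]
      exact MulEquiv.orderOf_eq (MulAut.conj g) (y : G)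
    have h2 : orderOf y ∣ Nat.card L₁ := by
      have h := orderOf_dvd_natCard (⟨y, hy⟩ : ↥L₁)
      rwa [Subgroup.orderOf_mk] at h
    have h3 : orderOf (QuotientGroup.mk' L₁ (⟨g * y * g⁻¹, hmemN⟩ : ↥N)) ∣
        orderOf (⟨g * y * g⁻¹, hmemN⟩ : ↥N) := orderOf_map_dvd (QuotientGroup.mk' L₁) _
    have h4 : orderOf (QuotientGroup.mk' L₁ (⟨g * y * g⁻¹, hmemN⟩ : ↥N)) ∣ q ^ k := by
      rw [← hk]
      exact orderOf_dvd_natCard _
    have hcop : (orderOf (QuotientGroup.mk' L₁ (⟨g * y * g⁻¹, hmemN⟩ : ↥N))).Coprime (q ^ k) :=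
      Nat.Coprime.coprime_dvd_left (h3.trans (h1 ▸ h2)) (hL₁co.pow_right k)
    have h5 := Nat.Coprime.eq_one_of_dvd hcop h4
    rw [orderOf_eq_one_iff] at h5
    exact (QuotientGroup.eq_one_iff _).1 h5
  · rw [Subgroup.card_map_of_injective N.subtype_injective]
    exact hL₁co
  · have h1 : (L₁.map N.subtype).subgroupOf N = L₁ :=
      Subgroup.comap_map_eq_self_of_injective N.subtype_injective L₁
    show ((L₁.map N.subtype).subgroupOf N).index = q ^ k
    rw [h1, hk]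

end Cfsg.Agent.Lib.Helper47.TC3THN
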