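import Mathlib
import Cfsg.Agent.Lib.Helper41.TMStmt
import Cfsg.Agent.Lib.Helper44.NegPairs

/-!
# S5987 piece SUBPERP (helper47)

Relative orthogonal complement of a nondegenerate `B` inside a nondegenerate `Y` for the minus
form: `Y' = Y ⊓ B^⊥`, with `B^⊥` from `TMStmt.Perp` (hypothesis in front).  `Perp` needs `1 ≤ d`;
for `d = 0` the index type `M 0` is `M 1` definitionally.
-/

set_option autoImplicit false

namespace Cfsg.Agent.Lib.Helper47.TMSUBPERP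

open Cfsg.Agent.Lib.Helper41.TMStmt
open Cfsg.Agent.Lib.Helper45.OMiStmt (M Aniso FxM NDegM StabM)
open Cfsg.Agent.Lib.Helper41.TMTwoStmt (TSubM PlusM FixTSM)
open Cfsg.Agent.Lib.Helper44.NegPairs

universe u

theorem aux (hPerp : Perp.{u}) (F : Type u) [Field F] [Fintype F] (a₀ b₀ : F)
    (hab : Aniso a₀ b₀) (d : ℕ) (hd : 1 ≤ d)
    (Y B : Submodule F (M d → F)) (hY : NDegM d F a₀ b₀ Y) (hB : NDegM d F a₀ b₀ B)
    (hBY : B ≤ Y) :
    ∃ Y' : Submodule F (M d → F), Y' ≤ Y ∧ NDegM d F a₀ b₀ Y' ∧ B ⊓ Y' = ⊥ ∧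
      (∀ b ∈ B, ∀ y ∈ Y', QuadraticMap.polar (Cfsg.quadFormMinus (d - 1) F a₀ b₀) b y = 0) ∧
      Module.finrank F ↥B + Module.finrank F ↥Y' = Module.finrank F ↥Y ∧
      ∀ x : Matrix.GeneralLinearGroup (M d) F,
        x ∈ Cfsg.isometryGroup F (Cfsg.quadFormMinus (d - 1) F a₀ b₀) →
        StabM (x : Matrix (M d) (M d) F) Y → StabM (x : Matrix (M d) (M d) F) B →
        StabM (x : Matrix (M d) (M d) F) Y' := by
  obtain ⟨Z, hBZ, hZ, hinf, hdim, hstab⟩ := hPerp F a₀ b₀ hab d hd B hB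
  have hV : Module.finrank F (M d → F) = 2 * d := by
    rw [Module.finrank_fintype_fun_eq_card, Fintype.card_sum, Fintype.card_sum, Fintype.card_fin,
      Fintype.card_fin]
    omega
  have hsup : B ⊔ Z = ⊤ := by
    apply Submodule.eq_top_of_finrank_eq
    have h1 := Submodule.finrank_sup_add_finrank_inf_eq B Z
    rw [hinf, finrank_bot, add_zero] at h1
    rw [h1, hdim, hV]
  have hmod : B ⊔ (Y ⊓ Z) = Y := by
    have h1 := sup_inf_assoc_of_le Z hBY
    rw [hsup, top_inf_eq, inf_comm] at h1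
    exact h1.symm
  have hinf2 : B ⊓ (Y ⊓ Z) = ⊥ := by
    rw [eq_bot_iff]
    intro v hv
    have h1 : v ∈ B ⊓ Z := ⟨hv.1, hv.2.2⟩
    rw [hinf] at h1
    exact h1
  refine ⟨Y ⊓ Z, inf_le_left, ?_, hinf2, ?_, ?_, ?_⟩
  · intro w hw hw0
    obtain ⟨hwY, hwZ⟩ := Submodule.mem_inf.1 hw
    obtain ⟨⟨y, hy, hyw⟩, -⟩ := hY w hwY hw0
    rw [← hmod] at hy
    obtain ⟨b, hb, z', hz', rfl⟩ := Submodule.mem_sup.1 hy
    have h1 : QuadraticMap.polar (Cfsg.quadFormMinus (d - 1) F a₀ b₀) (b + z') w =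
        QuadraticMap.polar (Cfsg.quadFormMinus (d - 1) F a₀ b₀) b w +
          QuadraticMap.polar (Cfsg.quadFormMinus (d - 1) F a₀ b₀) z' w :=
      QuadraticMap.polar_add_left (minusQ (d - 1) F a₀ b₀) b z' w
    rw [h1, hBZ b hb w hwZ, zero_add] at hyw
    refine ⟨⟨z', hz', hyw⟩, ⟨z', hz', ?_⟩⟩
    intro h
    apply hyw
    rw [QuadraticMap.polar_comm]
    exact h
  · intro b hb y hy
    exact hBZ b hb y hy.2
  · have h1 := Submodule.finrank_sup_add_finrank_inf_eq B (Y ⊓ Z)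
    rw [hinf2, finrank_bot, add_zero, hmod] at h1
    exact h1.symm
  · intro x hx hxY hxB
    have hxZ := hstab x hx hxB
    unfold StabM at *
    exact (Submodule.map_inf_le _).trans (inf_le_inf hxY hxZ)

theorem main (hPerp : Perp.{u}) : SubPerp.{u} := by
  intro F _ _ a₀ b₀ hab d Y B hY hB hBY
  rcases Nat.eq_zero_or_pos d with rfl | hd
  · exact aux hPerp F a₀ b₀ hab 1 le_rfl Y B hY hB hBY
  · exact aux hPerp F a₀ b₀ hab d hd Y B hY hB hBY

end Cfsg.Agent.Lib.Helper47.TMSUBPERP
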