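import Mathlib
import Cfsg.Prelude.Def_LocalEven
import Cfsg.Agent.Lib.Helper24.BurnsideBasis
import Cfsg.Agent.Lib.Helper11.PConstr
import Cfsg.Agent.Lib.Helper1.HHJordan

/-!
# Sections of wreath type `C_p ≀ C_p`

`WrProp p W` is the abstract description of a group of order `p ^ (p + 1)` with an elementary
abelian normal subgroup `B` of order `p ^ p` and an element `t` of order `p` outside `B` whose
centralizer in `B` has order `p`.  The main result `wr_general` produces such a section from a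
normal subgroup `Q` with a surjective additive map `ψ : Q → M` onto an `𝔽_p`-module and an element
`x` with `x ^ p ∈ Q` acting on `M` through an operator `A` with `(A - 1) ^ p = 0` and
`(A - 1) ^ (p - 1) ≠ 0`.
-/

set_option autoImplicit false

namespace Cfsg.Agent.Lib.Helper47.WrSec

/-- The wreath-type property. -/
def WrProp (p : ℕ) (W : Type*) [Group W] : Prop :=
  ∃ (B : Subgroup W) (t : W), B.Normal ∧ IsMulCommutative B ∧ (∀ b ∈ B, b ^ p = 1) ∧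
    Nat.card B = p ^ p ∧ orderOf t = p ∧ t ∉ B ∧ Nat.card W = p ^ (p + 1) ∧
    Nat.card ↥(B ⊓ Subgroup.centralizer ({t} : Set W)) = p

theorem WrProp.of_mulEquiv {p : ℕ} {W W' : Type*} [Group W] [Group W'] (e : W ≃* W')
    (h : WrProp p W) : WrProp p W' := by
  obtain ⟨B, t, hBn, hBc, hBe, hBcard, ht, htB, hW, hC⟩ := h
  refine ⟨B.map e.toMonoidHom, e t, ?_, ?_, ?_, ?_, ?_, ?_, ?_, ?_⟩
  · exact Subgroup.Normal.map hBn _ e.surjective
  · exact Subgroup.map_isMulCommutative B e.toMonoidHom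
  · rintro _ ⟨b, hb, rfl⟩
    show e.toMonoidHom b ^ p = 1
    rw [← map_pow, hBe b hb, map_one]
  · rw [Subgroup.card_map_of_injective e.injective]
    exact hBcard
  · rw [MulEquiv.orderOf_eq]
    exact ht
  · rintro ⟨b, hb, hbt⟩
    have : b = t := e.injective hbt
    exact htB (this ▸ hb)
  · rw [← Nat.card_congr e.toEquiv]
    exact hW
  · have hEq : B.map e.toMonoidHom ⊓ Subgroup.centralizer ({e t} : Set W') =
        (B ⊓ Subgroup.centralizer ({t} : Set W)).map e.toMonoidHom := by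
      ext w
      constructor
      · rintro ⟨⟨b, hb, rfl⟩, hc⟩
        have hc' : e b ∈ Subgroup.centralizer ({e t} : Set W') := hc
        have hcb : b ∈ Subgroup.centralizer ({t} : Set W) := by
          rw [Subgroup.mem_centralizer_singleton_iff] at hc' ⊢
          apply e.injective
          rw [map_mul, map_mul]
          exact hc'
        exact ⟨b, ⟨hb, hcb⟩, rfl⟩
      · rintro ⟨b, ⟨hb, hc⟩, rfl⟩
        have hc' : b ∈ Subgroup.centralizer ({t} : Set W) := hc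
        have hcb : e b ∈ Subgroup.centralizer ({e t} : Set W') := by
          rw [Subgroup.mem_centralizer_singleton_iff] at hc' ⊢
          rw [← map_mul, ← map_mul, hc']
        exact ⟨⟨b, hb, rfl⟩, hcb⟩
    rw [hEq, Subgroup.card_map_of_injective e.injective]
    exact hC

/-- A surjection from a subgroup gives a section. -/
theorem involves_of_surj' {G : Type*} [Group G] {H : Type*} [Group H] (K : Subgroup G)
    (f : ↥K →* H) (hf : Function.Surjective f) : Cfsg.Involves H G := by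
  have e : (f.ker.map K.subtype).subgroupOf K = f.ker :=
    Subgroup.comap_map_eq_self_of_injective K.subtype_injective _
  have hn : ((f.ker.map K.subtype).subgroupOf K).Normal := by rw [e]; infer_instance
  exact ⟨K, f.ker.map K.subtype, hn,
    ⟨(QuotientGroup.quotientMulEquivOfEq e).trans (QuotientGroup.quotientKerEquivOfSurjective f hf)⟩⟩

section LA

variable {F : Type*} [Field F] {M : Type*} [AddCommGroup M] [Module F M]

/-- Key vanishing lemma for a nilpotent chain `v, D v, …, D ^ (n - 1) v`. -/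
theorem coeff_zero_of_pow_apply (D : M →ₗ[F] M) (n : ℕ) (v : M) (hDn : (D ^ n) v = 0)
    (hv : (D ^ (n - 1)) v ≠ 0) (g : ℕ → F) (k : ℕ)
    (h : (D ^ k) (∑ i ∈ Finset.range n, g i • (D ^ i) v) = 0) :
    ∀ i, i + k < n → g i = 0 := by
  intro i
  induction i using Nat.strong_induction_on with
  | _ i ih =>
    intro hik
    have h1 : (D ^ (n - 1 - i)) (∑ j ∈ Finset.range n, g j • (D ^ j) v) = 0 := by
      have : n - 1 - i = (n - 1 - i - k) + k := by omega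
      rw [this, pow_add, Module.End.mul_apply, h, map_zero]
    rw [map_sum] at h1
    rw [Finset.sum_eq_single i] at h1
    · rw [map_smul, ← Module.End.mul_apply, ← pow_add] at h1
      have e : n - 1 - i + i = n - 1 := by omega
      rw [e] at h1
      exact (smul_eq_zero.1 h1).resolve_right hv
    · intro j hj hji
      rw [map_smul, ← Module.End.mul_apply, ← pow_add]
      rcases Nat.lt_or_gt_of_ne hji with hlt | hgt
      · rw [ih j hlt (by omega), zero_smul]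
      · have e : n - 1 - i + j = (j - i - 1) + n := by omega
        rw [e, pow_add, Module.End.mul_apply, hDn, map_zero, smul_zero]
    · intro hi
      exact absurd (Finset.mem_range.2 (by omega)) hi

/-- Elements of the span of the chain as `Finset.range` sums. -/
theorem mem_chain_iff (D : M →ₗ[F] M) (n : ℕ) (v : M) (b : M) :
    b ∈ Submodule.span F (Set.range fun i : Fin n => (D ^ (i : ℕ)) v) ↔
      ∃ g : ℕ → F, b = ∑ i ∈ Finset.range n, g i • (D ^ i) v := by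
  rw [Submodule.mem_span_range_iff_exists_fun]
  constructor
  · rintro ⟨c, rfl⟩
    refine ⟨fun i => if h : i < n then c ⟨i, h⟩ else 0, ?_⟩
    rw [← Fin.sum_univ_eq_sum_range (fun i => (if h : i < n then c ⟨i, h⟩ else 0) • (D ^ i) v) n]
    apply Finset.sum_congr rfl
    intro i _
    simp
  · rintro ⟨g, rfl⟩
    refine ⟨fun i => g i, ?_⟩
    rw [← Fin.sum_univ_eq_sum_range (fun i => g i • (D ^ i) v) n]

theorem chain_linearIndependent (D : M →ₗ[F] M) (n : ℕ) (v : M) (hDn : (D ^ n) v = 0)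
    (hv : (D ^ (n - 1)) v ≠ 0) : LinearIndependent F (fun i : Fin n => (D ^ (i : ℕ)) v) := by
  rw [Fintype.linearIndependent_iff]
  intro c hc i
  have h0 := coeff_zero_of_pow_apply D n v hDn hv
    (fun i => if h : i < n then c ⟨i, h⟩ else 0) 0 (by
      rw [← Fin.sum_univ_eq_sum_range
        (fun i => (if h : i < n then c ⟨i, h⟩ else 0) • (D ^ i) v) n]
      have : (∑ i : Fin n, (if h : (i : ℕ) < n then c ⟨i, h⟩ else 0) • (D ^ (i : ℕ)) v)
          = ∑ i : Fin n, c i • (D ^ (i : ℕ)) v := by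
        apply Finset.sum_congr rfl
        intro i _
        simp
      rw [this, hc]
      simp) i (by simp)
  simpa using h0

theorem chain_map_mem (D : M →ₗ[F] M) (n : ℕ) (v : M) (hDn : (D ^ n) v = 0) (b : M)
    (hb : b ∈ Submodule.span F (Set.range fun i : Fin n => (D ^ (i : ℕ)) v)) :
    D b ∈ Submodule.span F (Set.range fun i : Fin n => (D ^ (i : ℕ)) v) := by
  have hle : Submodule.span F (Set.range fun i : Fin n => (D ^ (i : ℕ)) v) ≤
      (Submodule.span F (Set.range fun i : Fin n => (D ^ (i : ℕ)) v)).comap D := by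
    rw [Submodule.span_le]
    rintro _ ⟨i, rfl⟩
    show D ((D ^ (i : ℕ)) v) ∈ Submodule.span F (Set.range fun i : Fin n => (D ^ (i : ℕ)) v)
    rw [← Module.End.mul_apply, ← pow_succ']
    by_cases hi : (i : ℕ) + 1 < n
    · exact Submodule.subset_span ⟨⟨(i : ℕ) + 1, hi⟩, rfl⟩
    · have : (i : ℕ) + 1 = n := by have := i.2; omega
      rw [this, hDn]
      exact zero_mem _
  exact hle hb

theorem chain_ker (D : M →ₗ[F] M) (n : ℕ) (hn : 0 < n) (v : M) (hDn : (D ^ n) v = 0)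
    (hv : (D ^ (n - 1)) v ≠ 0) (b : M)
    (hb : b ∈ Submodule.span F (Set.range fun i : Fin n => (D ^ (i : ℕ)) v)) (hDb : D b = 0) :
    ∃ c : F, b = c • (D ^ (n - 1)) v := by
  obtain ⟨g, rfl⟩ := (mem_chain_iff D n v b).1 hb
  have h0 := coeff_zero_of_pow_apply D n v hDn hv g 1 (by rw [pow_one]; exact hDb)
  refine ⟨g (n - 1), ?_⟩
  rw [Finset.sum_eq_single (n - 1)]
  · intro j hj hjn
    have hj' := Finset.mem_range.1 hj
    rw [h0 j (by omega), zero_smul]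
  · intro h
    exact absurd (Finset.mem_range.2 (by omega)) h

end LA

section Tight

theorem add_one' {T : Type*} [Group T] {M : Type*} [AddCommGroup M] {N : Subgroup T}
    (ψ : ↥N → M) (hψ : ∀ a b, ψ (a * b) = ψ a + ψ b) : ψ 1 = 0 := by
  have := hψ 1 1
  rw [mul_one] at this
  simpa using this

theorem add_inv' {T : Type*} [Group T] {M : Type*} [AddCommGroup M] {N : Subgroup T}
    (ψ : ↥N → M) (hψ : ∀ a b, ψ (a * b) = ψ a + ψ b) (a : ↥N) : ψ a⁻¹ = -ψ a := by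
  have := hψ a a⁻¹
  rw [mul_inv_cancel, add_one' ψ hψ] at this
  exact (neg_eq_of_add_eq_zero_right this.symm).symm

theorem add_pow' {T : Type*} [Group T] {M : Type*} [AddCommGroup M] {N : Subgroup T}
    (ψ : ↥N → M) (hψ : ∀ a b, ψ (a * b) = ψ a + ψ b) (a : ↥N) (k : ℕ) :
    ψ (a ^ k) = k • ψ a := by
  induction k with
  | zero => simp [add_one' ψ hψ]
  | succ k ih => rw [pow_succ, hψ, ih, succ_nsmul]

/-- The tight configuration: `T = N ⟨x⟩`, the image of `ψ` is the chain module plus the line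
spanned by the image `z` of `x ^ p`, and that line meets the chain module trivially. -/
theorem wr_tight {T : Type*} [Group T] [Finite T] {p : ℕ} [Fact p.Prime] (N : Subgroup T)
    [hNn : N.Normal] (x : T) (hxN : x ^ p ∈ N) (hgen : N ⊔ Subgroup.zpowers x = ⊤)
    {M : Type*} [AddCommGroup M] [Module (ZMod p) M]
    (ψ : ↥N → M) (hψ : ∀ a b, ψ (a * b) = ψ a + ψ b) (D : M →ₗ[ZMod p] M)
    (hD : ∀ (n : ↥N) (h : x * n * x⁻¹ ∈ N), ψ ⟨x * n * x⁻¹, h⟩ = ψ n + D (ψ n))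
    (v : M) (hDp : (D ^ p) v = 0) (hv : (D ^ (p - 1)) v ≠ 0)
    (hdisj : ∀ a : ZMod p, a • ψ ⟨x ^ p, hxN⟩ ∈
        Submodule.span (ZMod p) (Set.range fun i : Fin p => (D ^ (i : ℕ)) v) →
      a • ψ ⟨x ^ p, hxN⟩ = 0)
    (hrange : ∀ n : ↥N, ∃ b ∈ Submodule.span (ZMod p) (Set.range fun i : Fin p => (D ^ (i : ℕ)) v),
      ∃ a : ZMod p, ψ n = b + a • ψ ⟨x ^ p, hxN⟩)
    (hsurj : ∀ b ∈ Submodule.span (ZMod p) (Set.range fun i : Fin p => (D ^ (i : ℕ)) v),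
      ∃ n : ↥N, ψ n = b) :
    ∃ (W : Type) (_ : Group W) (_ : Finite W), WrProp p W ∧
      ∃ f : T →* W, Function.Surjective f := by
  classical
  have hp : p.Prime := Fact.out
  have hp2 : 2 ≤ p := hp.two_le
  obtain ⟨z, hz⟩ : ∃ z, z = ψ ⟨x ^ p, hxN⟩ := ⟨_, rfl⟩
  rw [← hz] at hdisj hrange
  obtain ⟨B₀, hB₀⟩ : ∃ B₀, B₀ = Submodule.span (ZMod p)
      (Set.range fun i : Fin p => (D ^ (i : ℕ)) v) := ⟨_, rfl⟩
  rw [← hB₀] at hdisj hrange hsurj
  have hψ1 : ψ 1 = 0 := add_one' ψ hψ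
  have hψinv : ∀ a, ψ a⁻¹ = -ψ a := add_inv' ψ hψ
  have hψconj : ∀ a b : ↥N, ψ (a * b * a⁻¹) = ψ b := by
    intro a b
    rw [hψ, hψ, hψinv]; abel
  -- `D z = 0`
  have hDz : D z = 0 := by
    have h1 : x * ((⟨x ^ p, hxN⟩ : ↥N) : T) * x⁻¹ ∈ N := hNn.conj_mem _ hxN x
    have h2 := hD ⟨x ^ p, hxN⟩ h1
    have h3 : (⟨x * ((⟨x ^ p, hxN⟩ : ↥N) : T) * x⁻¹, h1⟩ : ↥N) = ⟨x ^ p, hxN⟩ := by
      apply Subtype.ext
      show x * x ^ p * x⁻¹ = x ^ p
      rw [← pow_succ', pow_succ, mul_inv_cancel_right]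
    rw [h3, ← hz] at h2
    simpa using h2
  -- `x ∉ N`
  have hxN' : x ∉ N := by
    intro hx
    have hb : (D ^ (p - 2)) v ∈ B₀ := by
      rw [hB₀]
      exact Submodule.subset_span ⟨⟨p - 2, by omega⟩, rfl⟩
    obtain ⟨n, hn⟩ := hsurj _ hb
    have h1 : x * (n : T) * x⁻¹ ∈ N := hNn.conj_mem _ n.2 x
    have h2 := hD n h1
    have h3 : (⟨x * (n : T) * x⁻¹, h1⟩ : ↥N) = ⟨x, hx⟩ * n * ⟨x, hx⟩⁻¹ := rfl
    rw [h3, hψconj, hn] at h2
    have h4 : D ((D ^ (p - 2)) v) = 0 := by simpa using h2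
    apply hv
    have e : p - 1 = (p - 2) + 1 := by omega
    rw [e, pow_succ', Module.End.mul_apply, h4]
  -- the subgroup `R`
  let R : Subgroup T :=
    { carrier := {r | ∃ h : r ∈ N, ∃ a : ZMod p, ψ ⟨r, h⟩ = a • z}
      mul_mem' := by
        rintro r s ⟨hr, a, ha⟩ ⟨hs, b, hb⟩
        refine ⟨N.mul_mem hr hs, a + b, ?_⟩
        have : (⟨r * s, N.mul_mem hr hs⟩ : ↥N) = ⟨r, hr⟩ * ⟨s, hs⟩ := rfl
        rw [this, hψ, ha, hb, add_smul]
      one_mem' := ⟨N.one_mem, 0, by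
        have : (⟨1, N.one_mem⟩ : ↥N) = 1 := rfl
        rw [this, hψ1, zero_smul]⟩
      inv_mem' := by
        rintro r ⟨hr, a, ha⟩
        refine ⟨N.inv_mem hr, -a, ?_⟩
        have : (⟨r⁻¹, N.inv_mem hr⟩ : ↥N) = ⟨r, hr⟩⁻¹ := rfl
        rw [this, hψinv, ha, neg_smul] }
  have hRN : R ≤ N := fun r hr => hr.1
  have hRψ : ∀ q : ↥N, (∃ a : ZMod p, ψ q = a • z) → (q : T) ∈ R := fun q h => ⟨q.2, h⟩
  have hψR : ∀ q : ↥N, (q : T) ∈ R → ∃ a : ZMod p, ψ q = a • z := by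
    rintro q ⟨h', a, ha⟩
    exact ⟨a, ha⟩
  -- normality of `R`
  have hRn : R.Normal := by
    rw [← Subgroup.normalizer_eq_top_iff, eq_top_iff, ← hgen, sup_le_iff]
    constructor
    · intro n hn
      apply Cfsg.Agent.Lib.Helper11.PConstr.mem_normalizer_of_conj_mem'
      intro r hr
      obtain ⟨a, ha⟩ := hψR ⟨r, hRN hr⟩ hr
      have : n * r * n⁻¹ = (((⟨n, hn⟩ : ↥N) * ⟨r, hRN hr⟩ * (⟨n, hn⟩ : ↥N)⁻¹ : ↥N) : T) := rfl
      rw [this]
      apply hRψ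
      exact ⟨a, by rw [hψconj, ha]⟩
    · rw [Subgroup.zpowers_le]
      apply Cfsg.Agent.Lib.Helper11.PConstr.mem_normalizer_of_conj_mem'
      intro r hr
      obtain ⟨a, ha⟩ := hψR ⟨r, hRN hr⟩ hr
      have h1 : x * r * x⁻¹ ∈ N := hNn.conj_mem _ (hRN hr) x
      have h2 := hD ⟨r, hRN hr⟩ h1
      refine ⟨h1, a, ?_⟩
      rw [h2, ha, map_smul, hDz, smul_zero, add_zero]
  let π : T →* T ⧸ R := QuotientGroup.mk' R
  have hπs : Function.Surjective π := QuotientGroup.mk'_surjective R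
  have hπeq : ∀ a b : T, π a = π b ↔ a⁻¹ * b ∈ R := fun a b => QuotientGroup.eq
  have hπ1 : ∀ a : T, π a = 1 ↔ a ∈ R := fun a => QuotientGroup.eq_one_iff a
  obtain ⟨B, hB⟩ : ∃ B : Subgroup (T ⧸ R), B = N.map π := ⟨_, rfl⟩
  obtain ⟨t, ht⟩ : ∃ t : T ⧸ R, t = π x := ⟨_, rfl⟩
  have hBn : B.Normal := by
    rw [hB]
    exact Subgroup.Normal.map hNn π hπs
  have hBc : IsMulCommutative ↥B := by
    refine ⟨⟨fun a b => ?_⟩⟩
    obtain ⟨a, ha⟩ := a
    obtain ⟨b, hb⟩ := b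
    rw [hB] at ha hb
    obtain ⟨n, hn, rfl⟩ := ha
    obtain ⟨m, hm, rfl⟩ := hb
    apply Subtype.ext
    show π n * π m = π m * π n
    rw [← map_mul, ← map_mul, hπeq]
    apply hRψ ((⟨n, hn⟩ * ⟨m, hm⟩ : ↥N)⁻¹ * (⟨m, hm⟩ * ⟨n, hn⟩))
    refine ⟨0, ?_⟩
    rw [hψ, hψinv, hψ, hψ, zero_smul]
    abel
  have hBexp : ∀ b ∈ B, b ^ p = 1 := by
    intro b hb
    rw [hB] at hb
    obtain ⟨n, hn, rfl⟩ := hb
    rw [← map_pow, hπ1]
    apply hRψ ((⟨n, hn⟩ : ↥N) ^ p)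
    refine ⟨0, ?_⟩
    rw [add_pow' ψ hψ, zero_smul]
    exact ZModModule.char_nsmul_eq_zero p _
  have htp : t ^ p = 1 := by
    rw [ht, ← map_pow, hπ1]
    exact hRψ ⟨x ^ p, hxN⟩ ⟨1, by rw [one_smul, hz]⟩
  have ht1 : t ≠ 1 := by
    rw [ht]
    intro h
    exact hxN' (hRN ((hπ1 x).1 h))
  have hto : orderOf t = p := orderOf_eq_prime htp ht1
  have htB : t ∉ B := by
    rw [hB, ht]
    rintro ⟨n, hn, hnt⟩
    have h1 := (hπeq n x).1 hnt
    have h2 : n⁻¹ * x ∈ N := hRN h1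
    have h3 : x = n * (n⁻¹ * x) := by group
    rw [h3] at hxN'
    exact hxN' (N.mul_mem hn h2)
  choose lift hlift using hsurj
  have key : ∀ U : Submodule (ZMod p) M, U ≤ B₀ →
      Nat.card {w : T ⧸ R // ∃ n : ↥N, π n = w ∧ ∃ u ∈ U, ∃ a : ZMod p, ψ n = u + a • z}
        = Nat.card U := by
    intro U hU
    let g : U → {w : T ⧸ R // ∃ n : ↥N, π n = w ∧ ∃ u ∈ U, ∃ a : ZMod p, ψ n = u + a • z} :=
      fun u => ⟨π (lift u.1 (hU u.2)), lift u.1 (hU u.2), rfl, u.1, u.2, 0, by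
        rw [hlift, zero_smul, add_zero]⟩
    have hg : Function.Bijective g := by
      constructor
      · intro u u' huu
        have h1 : π (lift u.1 (hU u.2)) = π (lift u'.1 (hU u'.2)) := congrArg Subtype.val huu
        rw [hπeq] at h1
        obtain ⟨a, ha⟩ := hψR ((lift u.1 (hU u.2))⁻¹ * lift u'.1 (hU u'.2)) h1
        rw [hψ, hψinv, hlift, hlift] at ha
        have h2 : a • z ∈ B₀ := by
          rw [← ha]
          exact hU (U.add_mem (U.neg_mem u.2) u'.2)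
        have h3 := hdisj a h2
        rw [h3, neg_add_eq_zero] at ha
        exact Subtype.ext ha
      · rintro ⟨w, n, rfl, u, hu, a, hn⟩
        refine ⟨⟨u, hu⟩, ?_⟩
        apply Subtype.ext
        show π (lift u (hU hu)) = π n
        rw [hπeq]
        apply hRψ ((lift u (hU hu))⁻¹ * n)
        exact ⟨a, by rw [hψ, hψinv, hlift, hn]; abel⟩
    exact (Nat.card_congr (Equiv.ofBijective g hg)).symm
  have hBcard : Nat.card ↥B = p ^ p := by
    have h1 : Nat.card ↥B = Nat.card {w : T ⧸ R // ∃ n : ↥N, π n = w ∧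
        ∃ u ∈ B₀, ∃ a : ZMod p, ψ n = u + a • z} := by
      apply Nat.card_congr
      apply Equiv.subtypeEquivRight
      intro w
      rw [hB]
      constructor
      · rintro ⟨n, hn, rfl⟩
        exact ⟨⟨n, hn⟩, rfl, hrange ⟨n, hn⟩⟩
      · rintro ⟨n, rfl, -⟩
        exact ⟨n.1, n.2, rfl⟩
    rw [h1, key B₀ le_rfl, hB₀]
    have hli := chain_linearIndependent D p v hDp hv
    have hfin : Module.Finite (ZMod p) ↥(Submodule.span (ZMod p)
        (Set.range fun i : Fin p => (D ^ (i : ℕ)) v)) :=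
      FiniteDimensional.span_of_finite _ (Set.finite_range _)
    rw [Module.natCard_eq_pow_finrank (K := ZMod p), finrank_span_eq_card hli, Nat.card_zmod,
      Fintype.card_fin]
  have hWcard : Nat.card (T ⧸ R) = p ^ (p + 1) := by
    have h1 := Cfsg.Agent.Lib.Helper24.BurnsideBasis.card_sup_zpowers_of_pow_mem
      (N := B) (k := t) (p := p) htB (by rw [htp]; exact B.one_mem)
    have h2 : B ⊔ Subgroup.zpowers t = ⊤ := by
      rw [hB, ht, ← MonoidHom.map_zpowers, ← Subgroup.map_sup, hgen,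
        Subgroup.map_top_of_surjective π hπs]
    rw [h2, Subgroup.card_top, hBcard] at h1
    rw [h1, pow_succ]
  have hCcard : Nat.card ↥(B ⊓ Subgroup.centralizer ({t} : Set (T ⧸ R))) = p := by
    have hw0 : (D ^ (p - 1)) v ∈ B₀ := by
      rw [hB₀]
      exact Submodule.subset_span ⟨⟨p - 1, by omega⟩, rfl⟩
    have hU : Submodule.span (ZMod p) {(D ^ (p - 1)) v} ≤ B₀ := by
      rw [Submodule.span_le, Set.singleton_subset_iff]
      exact hw0
    have hDU : ∀ u ∈ Submodule.span (ZMod p) {(D ^ (p - 1)) v}, D u = 0 := by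
      intro u hu
      obtain ⟨c, rfl⟩ := Submodule.mem_span_singleton.1 hu
      rw [map_smul, ← Module.End.mul_apply, ← pow_succ']
      have : p - 1 + 1 = p := by omega
      rw [this, hDp, smul_zero]
    have h1 : Nat.card ↥(B ⊓ Subgroup.centralizer ({t} : Set (T ⧸ R))) =
        Nat.card {w : T ⧸ R // ∃ n : ↥N, π n = w ∧
          ∃ u ∈ Submodule.span (ZMod p) {(D ^ (p - 1)) v}, ∃ a : ZMod p, ψ n = u + a • z} := by
      apply Nat.card_congr
      apply Equiv.subtypeEquivRight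
      intro w
      constructor
      · rintro ⟨hwB, hc⟩
        have hwB' : w ∈ N.map π := by rw [← hB]; exact hwB
        obtain ⟨n, hn, rfl⟩ := hwB'
        have hc' : π n ∈ Subgroup.centralizer ({t} : Set (T ⧸ R)) := hc
        rw [Subgroup.mem_centralizer_singleton_iff] at hc'
        have h1 : x * n * x⁻¹ ∈ N := hNn.conj_mem _ hn x
        have h2 : π n = π (x * n * x⁻¹) := by
          rw [map_mul, map_mul, map_inv, ← ht, ← hc', mul_inv_cancel_right]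
        rw [hπeq] at h2
        obtain ⟨a, ha⟩ := hψR ((⟨n, hn⟩ : ↥N)⁻¹ * ⟨x * n * x⁻¹, h1⟩) h2
        rw [hψ, hψinv, hD ⟨n, hn⟩ h1] at ha
        obtain ⟨b, hb, c, hbc⟩ := hrange ⟨n, hn⟩
        have h3 : D b = a • z := by
          rw [hbc, map_add, map_smul, hDz, smul_zero, add_zero] at ha
          rw [← ha]; abel
        have h4 : D b ∈ B₀ := by
          rw [hB₀] at hb ⊢
          exact chain_map_mem D p v hDp b hb
        have h5 : D b = 0 := by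
          rw [h3]
          exact hdisj a (h3 ▸ h4)
        obtain ⟨c', hc'⟩ := chain_ker D p hp.pos v hDp hv b (hB₀ ▸ hb) h5
        exact ⟨⟨n, hn⟩, rfl, b, Submodule.mem_span_singleton.2 ⟨c', hc'.symm⟩, c, hbc⟩
      · rintro ⟨n, rfl, u, hu, a, hn⟩
        have hnB : π n ∈ B := by
          rw [hB]
          exact ⟨n.1, n.2, rfl⟩
        refine ⟨hnB, ?_⟩
        show π n ∈ Subgroup.centralizer ({t} : Set (T ⧸ R))
        rw [Subgroup.mem_centralizer_singleton_iff]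
        have h1 : x * (n : T) * x⁻¹ ∈ N := hNn.conj_mem _ n.2 x
        have h2 : π n = π (x * n * x⁻¹) := by
          rw [hπeq]
          apply hRψ (n⁻¹ * ⟨x * n * x⁻¹, h1⟩)
          refine ⟨0, ?_⟩
          rw [hψ, hψinv, hD n h1, hn, map_add, map_smul, hDz, hDU u hu]
          simp
        have h3 : π (x * n * x⁻¹) = t * π n * t⁻¹ := by rw [map_mul, map_mul, map_inv, ht]
        rw [h3] at h2
        calc π n * t = (t * π n * t⁻¹) * t := by rw [← h2]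
          _ = t * π n := by rw [inv_mul_cancel_right]
    rw [h1, key _ hU]
    rw [← Nat.card_congr (LinearEquiv.toSpanNonzeroSingleton (ZMod p) M _ hv).toEquiv,
      Nat.card_zmod]
  have hWr : WrProp p (T ⧸ R) := ⟨B, t, hBn, hBc, hBexp, hBcard, hto, htB, hWcard, hCcard⟩
  have hfinS : Finite (Shrink.{0} (T ⧸ R)) := Finite.of_equiv _ (equivShrink.{0} (T ⧸ R))
  have e : Shrink.{0} (T ⧸ R) ≃* (T ⧸ R) := Shrink.mulEquiv
  refine ⟨Shrink.{0} (T ⧸ R), inferInstance, hfinS, hWr.of_mulEquiv e.symm, ?_⟩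
  exact ⟨e.symm.toMonoidHom.comp π, e.symm.surjective.comp hπs⟩

end Tight

section General

theorem conj_pow_aux {T : Type*} [Group T] (Q : Subgroup T) [hQn : Q.Normal] (x : T)
    {R : Type*} [Ring R] {M : Type*} [AddCommGroup M] [Module R M]
    (ψ : ↥Q → M) (A : M →ₗ[R] M)
    (hA : ∀ (q : ↥Q) (h : x * q * x⁻¹ ∈ Q), ψ ⟨x * q * x⁻¹, h⟩ = A (ψ q)) (u : ↥Q) (k : ℕ) :
    ∃ h : x ^ k * u * (x ^ k)⁻¹ ∈ Q, ψ ⟨x ^ k * u * (x ^ k)⁻¹, h⟩ = (A ^ k) (ψ u) := by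
  induction k with
  | zero =>
    have h0 : x ^ 0 * (u : T) * (x ^ 0)⁻¹ ∈ Q := by simp
    refine ⟨h0, ?_⟩
    have : (⟨x ^ 0 * (u : T) * (x ^ 0)⁻¹, h0⟩ : ↥Q) = u := by
      apply Subtype.ext; simp
    rw [this]; simp
  | succ k ih =>
    obtain ⟨h, hk⟩ := ih
    have h1 : x * ((⟨x ^ k * u * (x ^ k)⁻¹, h⟩ : ↥Q) : T) * x⁻¹ ∈ Q := hQn.conj_mem _ h x
    have h2 := hA ⟨x ^ k * u * (x ^ k)⁻¹, h⟩ h1
    have e : x ^ (k + 1) * (u : T) * (x ^ (k + 1))⁻¹ = x * (x ^ k * u * (x ^ k)⁻¹) * x⁻¹ := by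
      rw [pow_succ', mul_inv_rev]; simp only [mul_assoc]
    have hm : x ^ (k + 1) * (u : T) * (x ^ (k + 1))⁻¹ ∈ Q := by rw [e]; exact h1
    refine ⟨hm, ?_⟩
    have : (⟨x ^ (k + 1) * (u : T) * (x ^ (k + 1))⁻¹, hm⟩ : ↥Q) =
        ⟨x * (x ^ k * u * (x ^ k)⁻¹) * x⁻¹, h1⟩ := Subtype.ext e
    rw [this, h2, hk, pow_succ', Module.End.mul_apply]

theorem norm_pow_aux {T : Type*} [Group T] (Q : Subgroup T) [hQn : Q.Normal] (x : T)
    {R : Type*} [Ring R] {M : Type*} [AddCommGroup M] [Module R M]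
    (ψ : ↥Q → M) (hψ : ∀ a b, ψ (a * b) = ψ a + ψ b) (A : M →ₗ[R] M)
    (hA : ∀ (q : ↥Q) (h : x * q * x⁻¹ ∈ Q), ψ ⟨x * q * x⁻¹, h⟩ = A (ψ q)) (u : ↥Q) (k : ℕ) :
    ∃ h : ((u : T) * x) ^ k * (x ^ k)⁻¹ ∈ Q,
      ψ ⟨((u : T) * x) ^ k * (x ^ k)⁻¹, h⟩ = (∑ i ∈ Finset.range k, A ^ i) (ψ u) := by
  induction k with
  | zero =>
    have h0 : ((u : T) * x) ^ 0 * (x ^ 0)⁻¹ ∈ Q := by simp
    refine ⟨h0, ?_⟩
    have : (⟨((u : T) * x) ^ 0 * (x ^ 0)⁻¹, h0⟩ : ↥Q) = 1 := by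
      apply Subtype.ext; simp
    rw [this, add_one' ψ hψ]; simp
  | succ k ih =>
    obtain ⟨h, hk⟩ := ih
    obtain ⟨h', hk'⟩ := conj_pow_aux Q x ψ A hA u k
    have e : ((u : T) * x) ^ (k + 1) * (x ^ (k + 1))⁻¹ =
        ((u : T) * x) ^ k * (x ^ k)⁻¹ * (x ^ k * u * (x ^ k)⁻¹) := by
      rw [pow_succ, pow_succ, mul_inv_rev]
      simp only [mul_assoc, inv_mul_cancel_left, mul_inv_cancel_left]
    have hm : ((u : T) * x) ^ (k + 1) * (x ^ (k + 1))⁻¹ ∈ Q := by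
      rw [e]; exact Q.mul_mem h h'
    refine ⟨hm, ?_⟩
    have : (⟨((u : T) * x) ^ (k + 1) * (x ^ (k + 1))⁻¹, hm⟩ : ↥Q) =
        ⟨((u : T) * x) ^ k * (x ^ k)⁻¹, h⟩ * ⟨x ^ k * u * (x ^ k)⁻¹, h'⟩ := Subtype.ext e
    rw [this, hψ, hk, hk', Finset.sum_range_succ, LinearMap.add_apply]

/-- **Wreath sections.** `Q ⊴ T`, `x ^ p ∈ Q`, `ψ : Q → M` additive and onto an `𝔽_p`-module on
which conjugation by `x` induces `A` with `(A - 1) ^ p = 0 ≠ (A - 1) ^ (p - 1)`: then `T` involves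
a group of wreath type. -/
theorem wr_general {T : Type*} [Group T] [Finite T] {p : ℕ} [Fact p.Prime] (Q : Subgroup T)
    [hQn : Q.Normal] (x : T) (hxQ : x ^ p ∈ Q)
    {M : Type*} [AddCommGroup M] [Module (ZMod p) M]
    (ψ : ↥Q → M) (hψ : ∀ a b, ψ (a * b) = ψ a + ψ b) (hψs : Function.Surjective ψ)
    (A : M →ₗ[ZMod p] M)
    (hA : ∀ (q : ↥Q) (h : x * q * x⁻¹ ∈ Q), ψ ⟨x * q * x⁻¹, h⟩ = A (ψ q))
    (v : M) (hAp : (A - 1) ^ p = 0) (hv : ((A - 1) ^ (p - 1)) v ≠ 0) :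
    ∃ (W : Type) (_ : Group W) (_ : Finite W), WrProp p W ∧ Cfsg.Involves W T := by
  classical
  have hp : p.Prime := Fact.out
  obtain ⟨D, hDdef⟩ : ∃ D : M →ₗ[ZMod p] M, D = A - 1 := ⟨_, rfl⟩
  rw [← hDdef] at hAp hv
  have hAD : ∀ m, A m = m + D m := by
    intro m
    rw [hDdef]
    simp
  have hDp : (D ^ p) v = 0 := by rw [hAp]; rfl
  obtain ⟨B₀, hB₀⟩ : ∃ B₀, B₀ = Submodule.span (ZMod p)
      (Set.range fun i : Fin p => (D ^ (i : ℕ)) v) := ⟨_, rfl⟩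
  have hψ1 := add_one' ψ hψ
  have hψinv := add_inv' ψ hψ
  have hψconj : ∀ a b : ↥Q, ψ (a * b * a⁻¹) = ψ b := by
    intro a b
    rw [hψ, hψ, hψinv]; abel
  have hfix : ∀ (y : T) (hy : y ^ p ∈ Q),
      (∀ (q : ↥Q) (h : y * q * y⁻¹ ∈ Q), ψ ⟨y * q * y⁻¹, h⟩ = A (ψ q)) →
      D (ψ ⟨y ^ p, hy⟩) = 0 := by
    intro y hy hAy
    have h1 : y * ((⟨y ^ p, hy⟩ : ↥Q) : T) * y⁻¹ ∈ Q := hQn.conj_mem _ hy y
    have h2 := hAy ⟨y ^ p, hy⟩ h1
    have h3 : (⟨y * ((⟨y ^ p, hy⟩ : ↥Q) : T) * y⁻¹, h1⟩ : ↥Q) = ⟨y ^ p, hy⟩ := by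
      apply Subtype.ext
      show y * y ^ p * y⁻¹ = y ^ p
      rw [← pow_succ', pow_succ, mul_inv_cancel_right]
    rw [h3, hAD] at h2
    simpa using h2
  -- modification of `x`
  have stepM : ∃ (x' : T) (hx' : x' ^ p ∈ Q),
      (∀ (q : ↥Q) (h : x' * q * x'⁻¹ ∈ Q), ψ ⟨x' * q * x'⁻¹, h⟩ = A (ψ q)) ∧
      (∀ a : ZMod p, a • ψ ⟨x' ^ p, hx'⟩ ∈ B₀ → a • ψ ⟨x' ^ p, hx'⟩ = 0) := by
    by_cases hz : ψ ⟨x ^ p, hxQ⟩ ∈ B₀
    · have hDz : D (ψ ⟨x ^ p, hxQ⟩) = 0 := hfix x hxQ hA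
      obtain ⟨c, hc⟩ := chain_ker D p hp.pos v hDp hv _ (hB₀ ▸ hz) hDz
      obtain ⟨u, hu⟩ := hψs (-(c • v))
      obtain ⟨h1, h2⟩ := norm_pow_aux Q x ψ hψ A hA u p
      have hN : (∑ i ∈ Finset.range p, A ^ i) = D ^ (p - 1) := by
        have := Cfsg.Agent.Lib.Helper1.HHJordan.geom_alg (ZMod p) p A 1
        rw [pow_one] at this
        rw [this, hDdef]
      have hx' : ((u : T) * x) ^ p ∈ Q := by
        have : ((u : T) * x) ^ p = ((u : T) * x) ^ p * (x ^ p)⁻¹ * x ^ p := by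
          rw [inv_mul_cancel_right]
        rw [this]
        exact Q.mul_mem h1 hxQ
      refine ⟨u * x, hx', ?_, ?_⟩
      · intro q h
        have h3 : x * (q : T) * x⁻¹ ∈ Q := hQn.conj_mem _ q.2 x
        have : (⟨(u : T) * x * q * ((u : T) * x)⁻¹, h⟩ : ↥Q) = u * ⟨x * q * x⁻¹, h3⟩ * u⁻¹ := by
          apply Subtype.ext
          show (u : T) * x * q * ((u : T) * x)⁻¹ = u * (x * q * x⁻¹) * (u : T)⁻¹
          rw [mul_inv_rev]; simp only [mul_assoc]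
        rw [this, hψconj, hA q h3]
      · intro a _
        have : (⟨((u : T) * x) ^ p, hx'⟩ : ↥Q) =
            ⟨((u : T) * x) ^ p * (x ^ p)⁻¹, h1⟩ * ⟨x ^ p, hxQ⟩ := by
          apply Subtype.ext
          show ((u : T) * x) ^ p = ((u : T) * x) ^ p * (x ^ p)⁻¹ * x ^ p
          rw [inv_mul_cancel_right]
        rw [this, hψ, h2, hN, hu, hc, map_neg, map_smul, neg_add_cancel, smul_zero]
    · refine ⟨x, hxQ, hA, ?_⟩
      intro a ha
      by_cases ha0 : a = 0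
      · rw [ha0, zero_smul]
      · exfalso
        apply hz
        have := B₀.smul_mem a⁻¹ ha
        rwa [smul_smul, inv_mul_cancel₀ ha0, one_smul] at this
  obtain ⟨x', hx', hA', hdisj⟩ := stepM
  have hDz : D (ψ ⟨x' ^ p, hx'⟩) = 0 := hfix x' hx' hA'
  obtain ⟨z, hz⟩ : ∃ z, z = ψ ⟨x' ^ p, hx'⟩ := ⟨_, rfl⟩
  rw [← hz] at hdisj hDz
  -- the subgroup `Q₁`
  let Q₁ : Subgroup T :=
    { carrier := {q | ∃ h : q ∈ Q, ∃ b ∈ B₀, ∃ a : ZMod p, ψ ⟨q, h⟩ = b + a • z}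
      mul_mem' := by
        rintro r s ⟨hr, b, hb, a, ha⟩ ⟨hs, b', hb', a', ha'⟩
        refine ⟨Q.mul_mem hr hs, b + b', B₀.add_mem hb hb', a + a', ?_⟩
        have : (⟨r * s, Q.mul_mem hr hs⟩ : ↥Q) = ⟨r, hr⟩ * ⟨s, hs⟩ := rfl
        rw [this, hψ, ha, ha', add_smul]; abel
      one_mem' := ⟨Q.one_mem, 0, B₀.zero_mem, 0, by
        have : (⟨1, Q.one_mem⟩ : ↥Q) = 1 := rfl
        rw [this, hψ1, zero_smul, add_zero]⟩
      inv_mem' := by
        rintro r ⟨hr, b, hb, a, ha⟩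
        refine ⟨Q.inv_mem hr, -b, B₀.neg_mem hb, -a, ?_⟩
        have : (⟨r⁻¹, Q.inv_mem hr⟩ : ↥Q) = ⟨r, hr⟩⁻¹ := rfl
        rw [this, hψinv, ha, neg_smul]; abel }
  have hQ₁Q : Q₁ ≤ Q := fun q hq => hq.1
  have hx'Q₁ : x' ^ p ∈ Q₁ := ⟨hx', 0, B₀.zero_mem, 1, by rw [zero_add, one_smul, hz]⟩
  have hx'n : x' ∈ Subgroup.normalizer (Q₁ : Set T) := by
    apply Cfsg.Agent.Lib.Helper11.PConstr.mem_normalizer_of_conj_mem'
    rintro q ⟨hq, b, hb, a, ha⟩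
    have h1 : x' * q * x'⁻¹ ∈ Q := hQn.conj_mem _ hq x'
    refine ⟨h1, b + D b, B₀.add_mem hb ?_, a, ?_⟩
    · rw [hB₀] at hb ⊢
      exact chain_map_mem D p v hDp b hb
    · rw [hA' ⟨q, hq⟩ h1, ha, hAD, map_add, map_smul, hDz, smul_zero, add_zero]
      abel
  obtain ⟨K, hK⟩ : ∃ K : Subgroup T, K = Q₁ ⊔ Subgroup.zpowers x' := ⟨_, rfl⟩
  have hQ₁K : Q₁ ≤ K := by rw [hK]; exact le_sup_left
  have hx'K : x' ∈ K := by
    rw [hK]
    exact (le_sup_right : Subgroup.zpowers x' ≤ _) (Subgroup.mem_zpowers x')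
  have hKn : K ≤ Subgroup.normalizer (Q₁ : Set T) := by
    rw [hK]
    exact sup_le Subgroup.le_normalizer ((Subgroup.zpowers_le).2 hx'n)
  have hNn : (Q₁.subgroupOf K).Normal :=
    (Subgroup.normal_subgroupOf_iff_le_normalizer hQ₁K).2 hKn
  have hgen : Q₁.subgroupOf K ⊔ Subgroup.zpowers (⟨x', hx'K⟩ : ↥K) = ⊤ := by
    apply Subgroup.map_injective K.subtype_injective
    rw [Subgroup.map_sup, Subgroup.map_subgroupOf_eq_of_le hQ₁K, MonoidHom.map_zpowers,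
      ← MonoidHom.range_eq_map, Subgroup.range_subtype]
    exact hK.symm
  let ψK : ↥(Q₁.subgroupOf K) → M := fun n => ψ ⟨((n : ↥K) : T), hQ₁Q n.2⟩
  have hψK : ∀ a b, ψK (a * b) = ψK a + ψK b := fun a b => hψ ⟨_, hQ₁Q a.2⟩ ⟨_, hQ₁Q b.2⟩
  have hxp : (⟨x', hx'K⟩ : ↥K) ^ p ∈ Q₁.subgroupOf K := hx'Q₁
  have hzK : ψK ⟨(⟨x', hx'K⟩ : ↥K) ^ p, hxp⟩ = z := hz.symm
  have h_equiv : ∀ (n : ↥(Q₁.subgroupOf K))
      (h : (⟨x', hx'K⟩ : ↥K) * n * (⟨x', hx'K⟩ : ↥K)⁻¹ ∈ Q₁.subgroupOf K),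
      ψK ⟨(⟨x', hx'K⟩ : ↥K) * n * (⟨x', hx'K⟩ : ↥K)⁻¹, h⟩ = ψK n + D (ψK n) := by
    intro n h
    have h1 : x' * ((n : ↥K) : T) * x'⁻¹ ∈ Q := hQn.conj_mem _ (hQ₁Q n.2) x'
    have h2 := hA' ⟨((n : ↥K) : T), hQ₁Q n.2⟩ h1
    rw [hAD] at h2
    exact h2
  have h_disj : ∀ a : ZMod p, a • ψK ⟨(⟨x', hx'K⟩ : ↥K) ^ p, hxp⟩ ∈
        Submodule.span (ZMod p) (Set.range fun i : Fin p => (D ^ (i : ℕ)) v) →
      a • ψK ⟨(⟨x', hx'K⟩ : ↥K) ^ p, hxp⟩ = 0 := by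
    rw [hzK, ← hB₀]
    exact hdisj
  have h_range : ∀ n : ↥(Q₁.subgroupOf K),
      ∃ b ∈ Submodule.span (ZMod p) (Set.range fun i : Fin p => (D ^ (i : ℕ)) v),
      ∃ a : ZMod p, ψK n = b + a • ψK ⟨(⟨x', hx'K⟩ : ↥K) ^ p, hxp⟩ := by
    rw [hzK, ← hB₀]
    intro n
    obtain ⟨h, b, hb, a, ha⟩ := n.2
    exact ⟨b, hb, a, ha⟩
  have h_surj : ∀ b ∈ Submodule.span (ZMod p) (Set.range fun i : Fin p => (D ^ (i : ℕ)) v),
      ∃ n : ↥(Q₁.subgroupOf K), ψK n = b := by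
    rw [← hB₀]
    intro b hb
    obtain ⟨q, hq⟩ := hψs b
    have hqQ₁ : (q : T) ∈ Q₁ := ⟨q.2, b, hb, 0, by rw [zero_smul, add_zero]; exact hq⟩
    exact ⟨⟨⟨q, hQ₁K hqQ₁⟩, hqQ₁⟩, hq⟩
  obtain ⟨W, iG, iF, hW, f, hf⟩ := wr_tight (Q₁.subgroupOf K) (⟨x', hx'K⟩ : ↥K) hxp hgen ψK hψK D
    h_equiv v hDp hv h_disj h_range h_surj
  exact ⟨W, iG, iF, hW, involves_of_surj' K f hf⟩

end General

end Cfsg.Agent.Lib.Helper47.WrSec
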